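import Cfsg.Agent.Lib.BPair.CenPair

/-!
# Centric normal pairs: the block of `Q C_G(Q)` is nilpotent
-/

set_option autoImplicit false
set_option linter.unusedSectionVars false
set_option linter.unusedSimpArgs false
set_option linter.unusedVariables false

open scoped ComplexConjugate Pointwise
open Cfsg MonoidAlgebra
open Cfsg.Agent.Lib.Block Cfsg.Agent.Lib.Char Cfsg.Agent.Lib.CharExtra

namespace Cfsg.Agent.Lib.BPair

attribute [local instance] subFintype

section Centric

variable {G : Type*} [Group G] [Fintype G] {M : Ideal AlgInt} [hMp : M.IsPrime] {p : ℕ} [hp : Fact p.Prime]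
  {B : Set (IrrCharacter G)} {P Q : Subgroup G} {e : Set (IrrCharacter (Cen P))} {f : Set (IrrCharacter (Cen Q))}

/-- If all of `G` stabilizes `(Q, f)`, the block of the pair has the idempotent of `f`. -/
theorem blockCoeff_eq_of_all_stable (hM : IsPModular p M) (hQf : IsBrauerPair p M Q f)
    (hG : ∀ x : G, x ∈ Subgroup.normalizer (Q : Set G) ∧ StabilizesBlock (Cen Q) f x)
    (hB : IsBrauerPairOf p M B Q f) (g : G) : blockCoeff B g = subgroupBlockCoeff (Cen Q) f g := by
  classical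
  obtain ⟨F, hF, hc⟩ := exists_blockT hM hQf.1 hQf.2 (T := ⊤) le_top le_top (fun t _ => (hG t).1) (fun t _ => (hG t).2)
  have hB₁ : IsPBlock M (mapBlock (Subgroup.topEquiv (G := G)) F) := isPBlock_mapBlock _ hF
  have hc₁ : ∀ g : G, blockCoeff (mapBlock (Subgroup.topEquiv (G := G)) F) g = subgroupBlockCoeff (Cen Q) f g := by
    intro g
    have h1 := blockCoeff_mapBlock (Subgroup.topEquiv (G := G)) F ⟨g, trivial⟩
    have h2 := hc ⟨g, trivial⟩
    rw [h2] at h1
    exact h1
  have hE : blockElt (mapBlock (Subgroup.topEquiv (G := G)) F) = Ee Q f := by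
    apply ext_coeff
    intro g
    rw [coeff_blockElt, hc₁, subgroupBlockCoeff_fun]
    rfl
  have hpair : IsBrauerPairOf p M (mapBlock (Subgroup.topEquiv (G := G)) F) Q f := by
    refine isBrauerPairOf_iff.2 ⟨hQf, hB₁, fun ξ hξ => ?_⟩
    rw [hE, resAlg_Ee_self]
    have h1 : om (ξ : Cen Q → ℂ) (blockElt f) = 1 := om_blockElt_of_mem hξ
    rw [h1, sub_self]
    exact memLocalIdeal_zero
  have hEq := (existsUnique_block_of_pair hM hQf).unique hB hpair
  rw [hEq, hc₁]

/-- **The block of `Q C_G(Q)` over a centric stable pair is nilpotent.** -/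
theorem exists_nilpotent_centric (hM : IsPModular p M) {F₀ : FusionSystem P}
    (hF : IsBlockFusionSystemOn p M B P e F₀) (hle : SubpairLE p M Q f P e) (hf : IsPBlock M f)
    (hcen : F₀.IsCentric Q) (hG : ∀ x : G, x ∈ Subgroup.normalizer (Q : Set G) ∧ StabilizesBlock (Cen Q) f x)
    {L : Subgroup G} (hL : L = Q ⊔ Cen Q) :
    ∃ F' : Set (IrrCharacter L), IsPBlock M F' ∧
      (∀ t : L, blockCoeff F' t = subgroupBlockCoeff (Cen Q) f (t : G)) ∧ IsNilpotentBlock p M F' := by
  classical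
  have hPe := (isBrauerPairOf_iff.1 hF.1.1).1
  have hQP := le_of_subpairLE hle
  have hQ : IsPGroup p Q := hPe.1.to_le hQP
  have hCL : Cen Q ≤ L := hL ▸ le_sup_right
  have hQL : Q ≤ L := hL ▸ le_sup_left
  have hLN : L ≤ Subgroup.normalizer (Q : Set G) := hL ▸ sup_le Subgroup.le_normalizer (cen_le_normalizer Q)
  obtain ⟨F', hF', hc⟩ := exists_blockT hM hQ hf hCL hQL hLN (fun t _ => (hG t).2)
  refine ⟨F', hF', hc, ?_⟩
  have hdef_f := (isCentric_iff hM hF hle hf).1 hcen
  haveI hNn : ((Cen Q).subgroupOf L).Normal := by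
    refine ⟨fun n hn t => ?_⟩
    rw [Subgroup.mem_subgroupOf] at hn ⊢
    exact (Subgroup.mem_normalizer_iff.1 (normalizer_le_normalizer_cen (hLN t.2)) _).1 hn
  haveI hQn : (Q.subgroupOf L).Normal := by
    refine ⟨fun n hn t => ?_⟩
    rw [Subgroup.mem_subgroupOf] at hn ⊢
    exact (Subgroup.mem_normalizer_iff.1 (hLN t.2) _).1 hn
  have hQ' : IsPGroup p (Q.subgroupOf L) := hQ.comap_subtype
  have hsplit : ∀ x ∈ L, ∃ u ∈ Q, ∃ c ∈ Cen Q, u * c = x := fun x hx =>
    mem_sup_cen Subgroup.le_normalizer (hL ▸ hx)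
  have hidx : ∃ k : ℕ, ((Cen Q).subgroupOf L).index = p ^ k := by
    have hpg : IsPGroup p (L ⧸ (Cen Q).subgroupOf L) := by
      intro g
      induction g using QuotientGroup.induction_on with
      | H t =>
        obtain ⟨u, hu, c, hc', huc⟩ := hsplit t t.2
        obtain ⟨k, hk⟩ := hQ ⟨u, hu⟩
        have hk' : u ^ p ^ k = 1 := by simpa using congrArg Subtype.val hk
        refine ⟨k, ?_⟩
        have h1 : (t : L ⧸ (Cen Q).subgroupOf L) = ((⟨u, hQL hu⟩ : L) : L ⧸ (Cen Q).subgroupOf L) := by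
          rw [QuotientGroup.eq]
          rw [Subgroup.mem_subgroupOf]
          have : (((t : L)⁻¹ * ⟨u, hQL hu⟩ : L) : G) = c⁻¹ := by
            show (t : G)⁻¹ * u = c⁻¹
            rw [← huc]
            group
          rw [this]
          exact (Cen Q).inv_mem hc'
        rw [h1, ← QuotientGroup.mk_pow, QuotientGroup.eq_one_iff, Subgroup.mem_subgroupOf]
        have h2 : ((⟨u, hQL hu⟩ ^ p ^ k : L) : G) = 1 := by
          show u ^ p ^ k = 1
          exact hk'
        rw [h2]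
        exact (Cen Q).one_mem
    obtain ⟨k, hk⟩ := IsPGroup.iff_card.1 hpg
    exact ⟨k, hk⟩
  have hc' : IsPBlock M (mapBlock (Subgroup.subgroupOfEquivOfLe hCL).symm f) := isPBlock_mapBlock _ hf
  have hst : ∀ (x : L) (θ : IrrCharacter ((Cen Q).subgroupOf L)),
      θ ∈ mapBlock (Subgroup.subgroupOfEquivOfLe hCL).symm f →
      conjIrr ((Cen Q).subgroupOf L) x θ ∈ mapBlock (Subgroup.subgroupOfEquivOfLe hCL).symm f :=
    stable_of_stabilizes _ (fun x => stabilizes_subgroupOf hCL hNn (hG x).2)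
  have hcoeff : ∀ g : L, blockCoeff F' g =
      subgroupBlockCoeff ((Cen Q).subgroupOf L) (mapBlock (Subgroup.subgroupOfEquivOfLe hCL).symm f) g := by
    intro g
    rw [subgroupBlockCoeff_subgroupOf, hc]
  obtain ⟨D, hD⟩ := Cfsg.Agent.Lib.CharExtra.exists_isDefectGroup hM hF'
  have hQD : Q.subgroupOf L ≤ D := normal_le_defect hM hQ' hF' hD
  obtain ⟨-, h2⟩ := defect_of_stable _ hM hidx hc' hst hF' hcoeff hD
  have h3 := isDefectGroup_mapBlock (p := p) (Subgroup.subgroupOfEquivOfLe hCL).symm hdef_f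
  have h4 := card_defect_eq hM hc' h2 h3
  rw [Subgroup.card_map_of_injective (Subgroup.subgroupOfEquivOfLe hCL).symm.injective,
    card_subgroupOf_of_le inf_le_right, card_subgroupOf_of_le inf_le_right] at h4
  have hZle : (Q ⊓ Cen Q).subgroupOf L ≤ D ⊓ (Cen Q).subgroupOf L := by
    intro z hz
    rw [Subgroup.mem_subgroupOf] at hz
    exact ⟨hQD (Subgroup.mem_subgroupOf.2 hz.1), Subgroup.mem_subgroupOf.2 hz.2⟩
  have hZeq : (Q ⊓ Cen Q).subgroupOf L = D ⊓ (Cen Q).subgroupOf L := by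
    refine Subgroup.eq_of_le_of_card_ge hZle ?_
    rw [h4, card_subgroupOf_of_le (inf_le_left.trans hQL)]
  have hDQ : D ≤ Q.subgroupOf L := by
    intro d hd
    obtain ⟨u, hu, c, hc', huc⟩ := hsplit d d.2
    have hu' : (⟨u, hQL hu⟩ : L) ∈ D := hQD (Subgroup.mem_subgroupOf.2 hu)
    have hcD : (⟨c, hCL hc'⟩ : L) ∈ D := by
      have e1 : (⟨c, hCL hc'⟩ : L) = (⟨u, hQL hu⟩ : L)⁻¹ * d := by
        apply Subtype.ext
        show c = u⁻¹ * (d : G)
        rw [← huc]
        group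
      rw [e1]
      exact D.mul_mem (D.inv_mem hu') hd
    have hcZ : (⟨c, hCL hc'⟩ : L) ∈ (Q ⊓ Cen Q).subgroupOf L := by
      rw [hZeq]
      exact ⟨hcD, Subgroup.mem_subgroupOf.2 hc'⟩
    rw [Subgroup.mem_subgroupOf] at hcZ ⊢
    rw [← huc]
    exact Q.mul_mem hu hcZ.1
  have hDeq : D = Q.subgroupOf L := le_antisymm hDQ hQD
  subst hDeq
  refine ⟨hF', fun R g hRg x hxN hxs hreg => ?_⟩
  have hregx : IsPRegular p (x : G) := by
    unfold IsPRegular at hreg ⊢
    rwa [Subgroup.orderOf_coe]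
  obtain ⟨u, hu, c, hc'', huc⟩ := hsplit x x.2
  have hxQ : (x : G) ∈ Cen Q := by
    refine mem_cen_of_regular_of_inner (u := u) ?_ hregx ?_ ?_
    · obtain ⟨k, hk⟩ := hQ ⟨u, hu⟩
      exact ⟨k, by simpa using congrArg Subtype.val hk⟩
    · intro v hv
      rw [← huc]
      have h1 : c * v = v * c := (Subgroup.mem_centralizer_iff.1 hc'' _ hv).symm
      have h5 : u * c * v * (u * c)⁻¹ = u * (c * v) * c⁻¹ * u⁻¹ := by group
      rw [h5, h1]
      group
    · intro v hv
      exact (Subgroup.mem_normalizer_iff.1 (hLN x.2) v).1 hv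
  obtain ⟨P', e', hmax', hle'⟩ := exists_max_above hM _ R g rfl hRg
  have hP'def := isDefectGroup_of_max hM hmax'
  obtain ⟨y, hy⟩ := defect_le_conj hM hF' hD hP'def
  have hRQ : R ≤ Q.subgroupOf L := by
    refine (le_of_subpairLE hle').trans (hy.trans ?_)
    rintro _ ⟨v, hv, rfl⟩
    exact hQn.conj_mem v hv y
  rw [Subgroup.mem_centralizer_iff]
  intro r hr
  apply Subtype.ext
  have hrQ : (r : G) ∈ Q := Subgroup.mem_subgroupOf.1 (hRQ hr)
  exact Subgroup.mem_centralizer_iff.1 hxQ _ hrQ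

end Centric

end Cfsg.Agent.Lib.BPair
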