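import Cfsg.Agent.Lib.CharExtra.Knorr
import Cfsg.Agent.Lib.Block.FirstMain2
import Cfsg.Agent.Lib.Block.Extended
import Cfsg.Agent.Lib.BPair.FongHeight
import Cfsg.Agent.Lib.BPair.Induced
import Cfsg.Agent.Lib.BPair.Rel

/-!
# The Harris–Knörr correspondence

Let `N` be normal in `G`, `d` a block of `N` with defect group `Q`, `e` its Brauer correspondent in `N_N(Q)`.
Block induction is a bijection from the blocks of `N_G(Q)` covering `e` onto the blocks of `G` covering `d`.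
-/

set_option autoImplicit false
set_option linter.unusedSectionVars false
set_option linter.unusedSimpArgs false
set_option linter.unusedVariables false

open scoped ComplexConjugate
open Cfsg MonoidAlgebra
open Cfsg.Agent.Lib.Block Cfsg.Agent.Lib.Char Cfsg.Agent.Lib.CharExtra

namespace Cfsg.Agent.Lib.BPair

attribute [local instance] subFintype

section TrUp

variable {G : Type*} [Group G] [Fintype G] (H : Subgroup G) [Fintype (G ⧸ H)]

/-- The relative trace from `H` to `G`. -/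
noncomputable def trUp (y : MonoidAlgebra ℂ G) : MonoidAlgebra ℂ G :=
  ∑ t : G ⧸ H, conjElt (Quotient.out t) y

theorem coeff_trUp (y : MonoidAlgebra ℂ G) (u : G) :
    (trUp H y).coeff u = ∑ t : G ⧸ H, y.coeff ((Quotient.out t)⁻¹ * u * Quotient.out t) := by
  unfold trUp
  rw [MonoidAlgebra.coeff_sum, Finset.sum_apply']
  exact Finset.sum_congr rfl fun t _ => coeff_conjElt _ _ _

theorem coeff_out_eq {y : MonoidAlgebra ℂ G} (hy : IsInvBy H y) (u g : G) :
    y.coeff ((Quotient.out (g : G ⧸ H))⁻¹ * u * Quotient.out (g : G ⧸ H)) = y.coeff (g⁻¹ * u * g) := by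
  obtain ⟨h, hh⟩ := QuotientGroup.mk_out_eq_mul H g
  have e1 : (Quotient.out (g : G ⧸ H)) = g * h := hh
  rw [e1]
  have e2 : (g * h)⁻¹ * u * (g * h) = (h : G)⁻¹ * (g⁻¹ * u * g) * ((h : G)⁻¹)⁻¹ := by group
  rw [e2]
  exact hy _ (H.inv_mem h.2) _

theorem isCentralElt_trUp {y : MonoidAlgebra ℂ G} (hy : IsInvBy H y) : IsCentralElt (trUp H y) := by
  intro a u
  rw [coeff_trUp, coeff_trUp]
  have e1 : ∀ t : G ⧸ H, y.coeff ((Quotient.out t)⁻¹ * (a * u * a⁻¹) * Quotient.out t) =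
      y.coeff ((Quotient.out ((a⁻¹ • t : G ⧸ H)))⁻¹ * u * Quotient.out ((a⁻¹ • t : G ⧸ H))) := by
    intro t
    have h1 : (a⁻¹ • t : G ⧸ H) = ((a⁻¹ * Quotient.out t : G) : G ⧸ H) := by
      conv_lhs => rw [← QuotientGroup.out_eq' t]
      rfl
    rw [h1, coeff_out_eq H hy]
    congr 1
    group
  rw [Finset.sum_congr rfl fun t _ => e1 t]
  exact Equiv.sum_comp (MulAction.toPerm (a⁻¹ : G)) (fun t : G ⧸ H =>
    y.coeff ((Quotient.out t)⁻¹ * u * Quotient.out t))

theorem localCoeff_trUp {M : Ideal AlgInt} [M.IsPrime] {y : MonoidAlgebra ℂ G} (hy : LocalCoeff M y) :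
    LocalCoeff M (trUp H y) := by
  intro u
  rw [coeff_trUp]
  exact memLocalRing_sum _ _ fun t _ => hy _

/-- Modulo the local ideal, the trace agrees with `y` on the centralizer of a `p`-subgroup `Q ≤ H`, provided the
terms attached to non-trivial cosets fixed by `Q` vanish. -/
theorem memLocalIdeal_coeff_trUp_sub {p : ℕ} [hp : Fact p.Prime] {M : Ideal AlgInt} [M.IsPrime] (hM : IsPModular p M)
    {Q : Subgroup G} (hQ : IsPGroup p Q) (hQH : Q ≤ H) {y : MonoidAlgebra ℂ G} (hy : IsInvBy H y)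
    (hyl : LocalCoeff M y) {u : G} (hu : u ∈ Subgroup.centralizer (Q : Set G))
    (hvan : ∀ g : G, g ∉ H → (∀ q ∈ Q, g⁻¹ * q * g ∈ H) → MemLocalIdeal M (y.coeff (g⁻¹ * u * g))) :
    MemLocalIdeal M ((trUp H y).coeff u - y.coeff u) := by
  classical
  rw [coeff_trUp]
  set W : G ⧸ H → ℂ := fun t => y.coeff ((Quotient.out t)⁻¹ * u * Quotient.out t) with hW
  have hW1 : W ((1 : G) : G ⧸ H) = y.coeff u := by
    simp only [hW]
    rw [coeff_out_eq H hy]
    simp
  have hsum : ∑ t : G ⧸ H, W t - y.coeff u =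
      ∑ t : G ⧸ H, (W t - if t = ((1 : G) : G ⧸ H) then y.coeff u else 0) := by
    rw [Finset.sum_sub_distrib, Finset.sum_ite_eq' Finset.univ]
    simp
  rw [hsum]
  have hfix1 : ∀ γ : Q, (γ • ((1 : G) : G ⧸ H)) = ((1 : G) : G ⧸ H) := by
    intro γ
    have h1 : (γ • ((1 : G) : G ⧸ H)) = (((γ : G) * 1 : G) : G ⧸ H) := rfl
    rw [h1, mul_one]
    exact QuotientGroup.eq.mpr (by simpa using H.inv_mem (hQH γ.2))
  have hQfin : Finite Q := inferInstance
  refine memLocalIdeal_sum_of_fixed hM hQ _ ?_ ?_ ?_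
  · intro γ t
    have h1 : (γ • t : G ⧸ H) = (((γ : G) * Quotient.out t : G) : G ⧸ H) := by
      conv_lhs => rw [← QuotientGroup.out_eq' t]
      rfl
    have h2 : W (γ • t) = W t := by
      simp only [hW]
      rw [h1, coeff_out_eq H hy]
      congr 1
      have h3 : (γ : G)⁻¹ * u * (γ : G) = u := by
        have := Subgroup.mem_centralizer_iff.mp hu (γ : G) γ.2
        rw [mul_assoc, ← this, inv_mul_cancel_left]
      calc ((γ : G) * Quotient.out t)⁻¹ * u * ((γ : G) * Quotient.out t)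
          = (Quotient.out t)⁻¹ * ((γ : G)⁻¹ * u * (γ : G)) * Quotient.out t := by group
        _ = _ := by rw [h3]
    have h4 : (γ • t = ((1 : G) : G ⧸ H)) ↔ t = ((1 : G) : G ⧸ H) := by
      constructor
      · intro h
        have := congrArg (fun s => γ⁻¹ • s) h
        simp only [inv_smul_smul] at this
        rw [this]
        exact hfix1 γ⁻¹
      · rintro rfl
        exact hfix1 γ
    simp only [h2, h4]
  · intro t
    refine memLocalRing_sub (hyl _) ?_
    split_ifs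
    · exact hyl _
    · exact memLocalRing_zero
  · intro t ht
    by_cases h1 : t = ((1 : G) : G ⧸ H)
    · rw [if_pos h1, h1, hW1, sub_self]
      exact memLocalIdeal_zero
    · rw [if_neg h1, sub_zero]
      apply hvan
      · intro hmem
        apply h1
        rw [← QuotientGroup.out_eq' t]
        exact QuotientGroup.eq.mpr (by simpa using hmem)
      · intro q hq
        have h2 := ht ⟨q, hq⟩
        have h3 : ((⟨q, hq⟩ : Q) • t : G ⧸ H) = ((q * Quotient.out t : G) : G ⧸ H) := by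
          conv_lhs => rw [← QuotientGroup.out_eq' t]
          rfl
        rw [h3] at h2
        conv at h2 => rhs; rw [← QuotientGroup.out_eq' t]
        have h4 := QuotientGroup.eq.mp h2
        have h5 := H.inv_mem h4
        simpa [mul_assoc] using h5

end TrUp

section Trunc

variable {K : Type*} [Group K] [Fintype K] {p : ℕ} [hp : Fact p.Prime] {M : Ideal AlgInt} [M.IsPrime]

/-- Two central elements agreeing modulo the local ideal on the centralizer of a normal `p`-subgroup have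
congruent central characters. -/
theorem memLocalIdeal_om_sub_of_agree (hM : IsPModular p M) (P : Subgroup K) [hPn : P.Normal] (hP : IsPGroup p P)
    {ξ : K → ℂ} (hξ : IsIrrCharacter K ξ) {z A : MonoidAlgebra ℂ K} (hz : IsCentralElt z) (hA : IsCentralElt A)
    (hzl : LocalCoeff M z) (hAl : LocalCoeff M A)
    (h : ∀ g ∈ Subgroup.centralizer (P : Set K), MemLocalIdeal M (z.coeff g - A.coeff g)) :
    MemLocalIdeal M (om ξ z - om ξ A) := by
  classical
  have : Fintype (ConjClasses K) := Fintype.ofFinite _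
  have hyc : IsCentralElt (z - A) := isCentralElt_sub hz hA
  rw [← om_sub, om_eq_sum_conjClasses hyc (Cfsg.Agent.Lib.Char.IsCharacter.isClassFunction
    (Cfsg.Agent.Lib.Char.IsIrrCharacter.isCharacter hξ))]
  refine memLocalIdeal_sum _ _ fun c _ => ?_
  rw [MonoidAlgebra.coeff_sub, Finsupp.sub_apply]
  by_cases hcC : c.out ∈ Subgroup.centralizer (P : Set K)
  · exact memLocalIdeal_mul_right (h _ hcC) (memLocalRing_centralChar hξ _)
  · refine memLocalIdeal_mul_left (memLocalRing_sub (hzl _) (hAl _)) ?_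
    refine memLocalIdeal_centralChar_of_no_centralize hM P hP ?_ hξ
    intro x hx hxC
    apply hcC
    obtain ⟨a, ha⟩ := isConj_iff.mp hx.symm
    rw [← ha]
    exact (inferInstance : (Subgroup.centralizer (P : Set K)).Normal).conj_mem x hxC a

end Trunc

section HK

variable {G : Type*} [Group G] [Fintype G] {p : ℕ} [hp : Fact p.Prime] {M : Ideal AlgInt} [hMp : M.IsPrime]

theorem mem_normalizer_of_conj_mem' {Q : Subgroup G} {g : G} (h : ∀ q ∈ Q, g * q * g⁻¹ ∈ Q) :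
    g ∈ Subgroup.normalizer (Q : Set G) := by
  have h1 : cj g Q ≤ Q := by
    rintro _ ⟨q, hq, rfl⟩
    exact h q hq
  have h2 : cj g Q = Q := Subgroup.eq_of_le_of_card_ge h1 (by rw [card_cj])
  rw [Subgroup.mem_normalizer_iff]
  intro q
  constructor
  · exact h q
  · intro hq
    have h3 : g * q * g⁻¹ ∈ cj g Q := by rw [h2]; exact hq
    rw [mem_cj] at h3
    simpa [mul_assoc] using h3

variable (N : Subgroup G) [hN : N.Normal] (Q : Subgroup G)

/-- The normalizer of `Q`. -/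
abbrev HH : Subgroup G := Subgroup.normalizer (Q : Set G)

/-- `N_N(Q)`. -/
abbrev LL : Subgroup G := HH Q ⊓ N

/-- `N_N(Q)` inside `N_G(Q)`. -/
abbrev Ls : Subgroup (HH Q) := (LL N Q).subgroupOf (HH Q)

instance Ls_normal : (Ls N Q).Normal := by
  constructor
  intro x hx g
  rw [Subgroup.mem_subgroupOf] at hx ⊢
  exact ⟨(g * x * g⁻¹).2, hN.conj_mem _ hx.2 g⟩

/-- `Ls` is isomorphic with `LL`. -/
noncomputable abbrev phi : Ls N Q ≃* LL N Q := Subgroup.subgroupOfEquivOfLe inf_le_left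

theorem phi_coe (x : Ls N Q) : ((phi N Q x : LL N Q) : G) = ((x : HH Q) : G) := rfl

theorem classInner_Ls (ψ : IrrCharacter (HH Q)) (ξ : IrrCharacter (LL N Q)) :
    classInner (fun l : LL N Q => (ψ : HH Q → ℂ) (Subgroup.inclusion inf_le_left l)) (ξ : LL N Q → ℂ) =
      classInner (fun n : Ls N Q => (ψ : HH Q → ℂ) n) (mapIrr (phi N Q).symm ξ : Ls N Q → ℂ) := by
  unfold classInner
  rw [Nat.card_congr (phi N Q).toEquiv]
  congr 1
  rw [← Equiv.sum_comp (phi N Q).toEquiv]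
  refine Finset.sum_congr rfl fun x _ => ?_
  rw [mapIrr_apply']
  rfl

variable {N Q}

theorem Qs_le_Ls (hQN : Q ≤ N) : Q.subgroupOf (HH Q) ≤ Ls N Q := by
  intro x hx
  rw [Subgroup.mem_subgroupOf] at hx ⊢
  exact ⟨x.2, hQN hx⟩

theorem isDefectGroup_Ls {e : Set (IrrCharacter (LL N Q))}
    (heQ : IsDefectGroup p M e (Q.subgroupOf (LL N Q))) :
    IsDefectGroup p M (mapBlock (phi N Q).symm e) ((Q.subgroupOf (HH Q)).subgroupOf (Ls N Q)) := by
  have h := isDefectGroup_mapBlock (p := p) (M := M) (phi N Q).symm heQ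
  convert h using 1
  ext x
  constructor
  · intro hx
    refine ⟨phi N Q x, ?_, by simp⟩
    rw [Subgroup.mem_subgroupOf] at hx
    rw [SetLike.mem_coe, Subgroup.mem_subgroupOf]
    rw [Subgroup.mem_subgroupOf] at hx
    exact hx
  · rintro ⟨y, hy, rfl⟩
    rw [Subgroup.mem_subgroupOf, Subgroup.mem_subgroupOf]
    rw [SetLike.mem_coe, Subgroup.mem_subgroupOf] at hy
    exact hy

/-- The term of a coset that is fixed by `Q` but different from `H` vanishes modulo the local ideal. -/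
theorem coeff_vanish (hM : IsPModular p M) (hQ : IsPGroup p Q) (hQN : Q ≤ N) {c : Set (IrrCharacter (HH Q))}
    (hc : IsPBlock M c) {b : Set (IrrCharacter (Ls N Q))} (hb : IsPBlock M b)
    (hbQ : IsDefectGroup p M b ((Q.subgroupOf (HH Q)).subgroupOf (Ls N Q)))
    (hcov : ∃ ψ ∈ c, ∃ θ ∈ b, classInner (fun n : Ls N Q => (ψ : HH Q → ℂ) n) (θ : Ls N Q → ℂ) ≠ 0)
    {g u : G} (hg : g ∉ HH Q) (hgQ : ∀ q ∈ Q, g⁻¹ * q * g ∈ HH Q) (hu : u ∈ Subgroup.centralizer (Q : Set G)) :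
    MemLocalIdeal M ((incl (HH Q) (blockElt c)).coeff (g⁻¹ * u * g)) := by
  classical
  by_contra hcon
  by_cases hv : g⁻¹ * u * g ∈ HH Q
  swap
  · apply hcon
    rw [coeff_incl_of_notMem _ _ hv]
    exact memLocalIdeal_zero
  have e1 : (incl (HH Q) (blockElt c)).coeff (g⁻¹ * u * g) = blockCoeff c ⟨g⁻¹ * u * g, hv⟩ := by
    have := coeff_incl_coe (HH Q) (blockElt c) ⟨g⁻¹ * u * g, hv⟩
    simp only at this
    rw [this, coeff_blockElt]
  rw [e1] at hcon
  obtain ⟨P₀, hP₀, hinf⟩ := exists_defect_inf_eq (Ls N Q) hM hc hb hcov (Qs_le_Ls hQN) hbQ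
  set E : Subgroup (HH Q) := (Q.map (MulAut.conj g⁻¹).toMonoidHom).subgroupOf (HH Q) with hE
  have hEp : IsPGroup p E := (hQ.map _).comap_of_injective _ (Subgroup.subtype_injective _)
  have hEd : E ≤ Subgroup.centralizer ({⟨g⁻¹ * u * g, hv⟩} : Set (HH Q)) := by
    intro x hx
    rw [Subgroup.mem_subgroupOf] at hx
    obtain ⟨q, hq, hqx⟩ := hx
    rw [Subgroup.mem_centralizer_singleton_iff]
    apply Subtype.ext
    simp only [Subgroup.coe_mul]
    rw [← hqx]
    have h2 := Subgroup.mem_centralizer_iff.mp hu q hq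
    simp only [MulEquiv.coe_toMonoidHom, MulAut.conj_apply, inv_inv]
    calc g⁻¹ * q * g * (g⁻¹ * u * g) = g⁻¹ * (q * u) * g := by group
      _ = g⁻¹ * (u * q) * g := by rw [h2]
      _ = g⁻¹ * u * g * (g⁻¹ * q * g) := by group
  obtain ⟨x, hx⟩ := le_conj_of_coeff hM hc hP₀ hcon hEp hEd
  have hmain : ∀ q ∈ Q, g⁻¹ * q * g ∈ Q := by
    intro q hq
    set e' : HH Q := ⟨g⁻¹ * q * g, hgQ q hq⟩ with he'
    have h1 : e' ∈ E := by
      rw [hE, Subgroup.mem_subgroupOf]
      exact ⟨q, hq, by simp [he']⟩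
    have h2 := hx h1
    rw [mem_cj] at h2
    have h3 : x⁻¹ * e' * x ∈ Ls N Q := by
      rw [Subgroup.mem_subgroupOf]
      refine ⟨(x⁻¹ * e' * x).2, ?_⟩
      have h4 : g⁻¹ * q * g ∈ N := by
        have := hN.conj_mem q (hQN hq) g⁻¹
        simpa using this
      have h5 := hN.conj_mem _ h4 (x⁻¹ : HH Q)
      simpa [he', mul_assoc] using h5
    have h6 : x⁻¹ * e' * x ∈ P₀ ⊓ Ls N Q := ⟨h2, h3⟩
    rw [hinf, Subgroup.mem_subgroupOf] at h6
    have h7 := (Subgroup.mem_normalizer_iff.1 x.2 _).1 h6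
    have h8 : (x : G) * (((x⁻¹ * e' * x : HH Q)) : G) * (x : G)⁻¹ = g⁻¹ * q * g := by
      simp [he', mul_assoc]
    rwa [h8] at h7
  have hin : g⁻¹ ∈ HH Q := mem_normalizer_of_conj_mem' (by simpa using hmain)
  apply hg
  simpa using (HH Q).inv_mem hin

theorem isInvBy_incl_blockElt (c : Set (IrrCharacter (HH Q))) : IsInvBy (HH Q) (incl (HH Q) (blockElt c)) :=
  incl_blockElt_conj c

/-- **Uniqueness.** -/
theorem eq_of_induced_of_cover (hM : IsPModular p M) (hQ : IsPGroup p Q) (hQN : Q ≤ N)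
    {c₁ c₂ : Set (IrrCharacter (HH Q))} {b : Set (IrrCharacter (Ls N Q))} (hb : IsPBlock M b)
    (hbQ : IsDefectGroup p M b ((Q.subgroupOf (HH Q)).subgroupOf (Ls N Q)))
    (hcov : ∃ ψ ∈ c₁, ∃ θ ∈ b, classInner (fun n : Ls N Q => (ψ : HH Q → ℂ) n) (θ : Ls N Q → ℂ) ≠ 0)
    {B : Set (IrrCharacter G)} (h₁ : IsInducedBlock M (HH Q) c₁ B) (h₂ : IsInducedBlock M (HH Q) c₂ B) :
    c₂ = c₁ := by
  classical
  haveI : Fintype (G ⧸ HH Q) := Fintype.ofFinite _
  have hc₁ := h₁.1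
  have hc₂ := h₂.1
  set y := incl (HH Q) (blockElt c₁) with hy
  have hyi : IsInvBy (HH Q) y := isInvBy_incl_blockElt c₁
  have hyl : LocalCoeff M y := localCoeff_incl _ (localCoeff_blockElt (isBlockUnion_of_isPBlock hc₁))
  set T := trUp (HH Q) y with hT
  have hTc : IsCentralElt T := isCentralElt_trUp _ hyi
  have hTl : LocalCoeff M T := localCoeff_trUp _ hyl
  have hQH : Q ≤ HH Q := le_normalizer_self Q
  have hKey : ∀ ψ : IrrCharacter (HH Q), MemLocalIdeal M (om (ψ : HH Q → ℂ) (resAlg (HH Q) T) -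
      om (ψ : HH Q → ℂ) (blockElt c₁)) := by
    intro ψ
    have s1 := memLocalIdeal_om_resAlg_sub_resG hM hQ hQH le_rfl ψ.2 hTc hTl
    haveI hQn : (Q.subgroupOf (HH Q)).Normal := normal_subgroupOf_normalizer Q
    have hQp : IsPGroup p (Q.subgroupOf (HH Q)) :=
      hQ.comap_of_injective _ (Subgroup.subtype_injective _)
    have s2 := memLocalIdeal_om_sub_of_agree hM (Q.subgroupOf (HH Q)) hQp ψ.2
      (z := resAlg (HH Q) (resG (Subgroup.centralizer (Q : Set G)) T)) (A := blockElt c₁)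
      (isCentralElt_resAlg_resG le_rfl hTc) (isCentralElt_blockElt c₁)
      (localCoeff_resAlg _ (localCoeff_resG _ hTl)) (localCoeff_blockElt (isBlockUnion_of_isPBlock hc₁)) ?_
    · exact memLocalIdeal_sub_trans s1 s2
    · intro g hg
      have hgC : (g : G) ∈ Subgroup.centralizer (Q : Set G) := by
        refine Subgroup.mem_centralizer_iff.mpr fun q hq => ?_
        have h2 := Subgroup.mem_centralizer_iff.mp hg ⟨q, hQH hq⟩ (by
          rw [SetLike.mem_coe, Subgroup.mem_subgroupOf]; exact hq)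
        exact congrArg Subtype.val h2
      rw [coeff_resAlg, coeff_resG_of_mem _ _ hgC]
      have h3 : (blockElt c₁).coeff g = y.coeff (g : G) := by
        rw [hy, coeff_incl_coe]
      rw [h3]
      refine memLocalIdeal_coeff_trUp_sub _ hM hQ hQH hyi hyl hgC ?_
      intro a ha hqa
      exact coeff_vanish hM hQ hQN hc₁ hb hbQ hcov ha hqa hgC
  obtain ⟨χ, hχ⟩ := IsPBlock_nonempty h₁.2.1
  have hcf := IsCharacter.isClassFunction (IsIrrCharacter.isCharacter χ.2)
  obtain ⟨ψ₁, hψ₁⟩ := IsPBlock_nonempty hc₁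
  obtain ⟨ψ₂, hψ₂⟩ := IsPBlock_nonempty hc₂
  have a1 := memLocalIdeal_om_resAlg_sub (HH Q) hcf (h₁.2.2 ψ₁ hψ₁ χ hχ) hTc hTl
  have a2 := memLocalIdeal_om_resAlg_sub (HH Q) hcf (h₂.2.2 ψ₂ hψ₂ χ hχ) hTc hTl
  have a3 := hKey ψ₁
  have a4 := hKey ψ₂
  rw [om_blockElt_of_mem hψ₁] at a3
  by_cases hψ : ψ₂ ∈ c₁
  · exact blocks_eq_or_disjoint hc₂ hc₁ hψ₂ hψ
  · exfalso
    rw [om_blockElt_of_notMem hψ, sub_zero] at a4
    -- `om χ T ≡ 1` and `≡ 0`
    rw [memLocalIdeal_sub_comm] at a1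
    have a5 := memLocalIdeal_sub_trans a1 a3
    have a6 : MemLocalIdeal M (om (χ : G → ℂ) T) := by
      have := memLocalIdeal_sub a4 a2
      simpa using this
    have : MemLocalIdeal M (1 : ℂ) := by
      have := memLocalIdeal_sub a6 a5
      simpa using this
    exact not_memLocalIdeal_one this

end HK

section Cover

variable {G : Type*} [Group G] [Fintype G] {p : ℕ} [hp : Fact p.Prime] {M : Ideal AlgInt} [hMp : M.IsPrime]
  {N : Subgroup G} [hN : N.Normal] {Q : Subgroup G}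

theorem om_res_eq_of_constituent (ψ : IrrCharacter (HH Q)) (ξ : IrrCharacter (LL N Q))
    (h : classInner (fun l : LL N Q => (ψ : HH Q → ℂ) (Subgroup.inclusion inf_le_left l)) (ξ : LL N Q → ℂ) ≠ 0)
    {z : MonoidAlgebra ℂ G} (hz : IsCentralElt z) (hzN : ∀ g, g ∉ N → z.coeff g = 0) :
    om (ψ : HH Q → ℂ) (resAlg (HH Q) z) = om (ξ : LL N Q → ℂ) (resAlg (LL N Q) z) := by
  rw [classInner_Ls] at h
  have hsup : ∀ g : HH Q, g ∉ Ls N Q → (resAlg (HH Q) z).coeff g = 0 := by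
    intro g hg
    rw [coeff_resAlg]
    apply hzN
    intro hgN
    exact hg (Subgroup.mem_subgroupOf.mpr ⟨g.2, hgN⟩)
  have h1 : incl (Ls N Q) (resAlg (Ls N Q) (resAlg (HH Q) z)) = resAlg (HH Q) z := incl_resAlg_of_support hsup
  have h2 := om_incl_of_constituent (Ls N Q) ψ (mapIrr (phi N Q).symm ξ) h
    (w := resAlg (Ls N Q) (resAlg (HH Q) z)) (by rw [h1]; exact isCentralElt_resAlg _ hz)
  rw [h1] at h2
  rw [h2]
  have h3 : ((mapIrr (phi N Q).symm ξ : IrrCharacter _) : Ls N Q → ℂ) =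
      (ξ : LL N Q → ℂ) ∘ Subgroup.subgroupOfEquivOfLe inf_le_left := by
    funext v
    rw [mapIrr_apply']
    rfl
  rw [h3]
  exact om_resAlg_transport inf_le_left _ _

/-- `B` covers `d` if `c` covers `e` and `c` induces `B`. -/
theorem mem_over_of_cover {d : Set (IrrCharacter N)} (hd : IsPBlock M d) {e : Set (IrrCharacter (LL N Q))}
    (hed : IsInducedBlockIn M N (LL N Q) e d) {c : Set (IrrCharacter (HH Q))} {B : Set (IrrCharacter G)}
    (hind : IsInducedBlock M (HH Q) c B) {ψ : IrrCharacter (HH Q)} (hψ : ψ ∈ c) {ξ : IrrCharacter (LL N Q)}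
    (hξ : ξ ∈ e)
    (h : classInner (fun l : LL N Q => (ψ : HH Q → ℂ) (Subgroup.inclusion inf_le_left l)) (ξ : LL N Q → ℂ) ≠ 0)
    {χ : IrrCharacter G} (hχ : χ ∈ B) : χ ∈ overSet N (sat N d) := by
  classical
  set E := blockElt (sat N d) with hE
  have hEc : IsCentralElt E := isCentralElt_blockElt _
  have hEl : LocalCoeff M E := localCoeff_blockElt (isBlockUnion_sat N (isBlockUnion_of_isPBlock hd))
  have hXc : IsCentralElt (incl N E) := isCentralElt_incl_blockElt N (isStable_sat N d)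
  have hXl : LocalCoeff M (incl N E) := localCoeff_incl _ hEl
  obtain ⟨θ, hθ⟩ := IsPBlock_nonempty hd
  have hcfθ := IsCharacter.isClassFunction (IsIrrCharacter.isCharacter θ.2)
  have a1 := memLocalIdeal_om_resAlg_incl_sub (inf_le_right : LL N Q ≤ N) hcfθ (hed.2.2 ξ hξ θ hθ) hEc hEl
  rw [hE, om_blockElt_of_mem (subset_sat N d hθ), ← hE] at a1
  have a2 := om_res_eq_of_constituent ψ ξ h hXc (fun g hg => coeff_incl_of_notMem _ _ hg)
  rw [← a2] at a1
  have hcf := IsCharacter.isClassFunction (IsIrrCharacter.isCharacter χ.2)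
  have a3 := memLocalIdeal_om_resAlg_sub (HH Q) hcf (hind.2.2 ψ hψ χ hχ) hXc hXl
  by_contra hnot
  rw [hE, om_over_of_notMem N (isStable_sat N d) hnot, sub_zero, ← hE] at a3
  have : MemLocalIdeal M (1 : ℂ) := by
    have := memLocalIdeal_sub a3 a1
    simpa using this
  exact not_memLocalIdeal_one this

/-- `Q` as a subgroup of `N`. -/
abbrev DD (N Q : Subgroup G) : Subgroup N := Q.subgroupOf N

/-- The normalizer of `Q` in `N`, a subgroup of `N`. -/
abbrev NN (N Q : Subgroup G) : Subgroup N := Subgroup.normalizer ((DD N Q : Subgroup N) : Set N)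

theorem mem_NN_iff (hQN : Q ≤ N) (x : N) : x ∈ NN N Q ↔ (x : G) ∈ HH Q := by
  rw [Subgroup.mem_normalizer_iff, Subgroup.mem_normalizer_iff]
  constructor
  · intro h q
    by_cases hq : q ∈ N
    · have := h ⟨q, hq⟩
      simpa [Subgroup.mem_subgroupOf] using this
    · have h1 : (x : G) * q * (x : G)⁻¹ ∉ N := by
        intro h2
        apply hq
        have := hN.conj_mem _ h2 (x : G)⁻¹
        simpa [mul_assoc] using this
      exact ⟨fun h3 => absurd (hQN h3) hq, fun h3 => absurd (hQN h3) h1⟩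
  · intro h q
    have := h (q : G)
    simpa [Subgroup.mem_subgroupOf] using this

/-- The normalizer of `Q` in `N` is `LL`. -/
noncomputable def iota (hQN : Q ≤ N) : NN N Q ≃* LL N Q where
  toFun x := ⟨x.1.1, (mem_NN_iff hQN _).1 x.2, x.1.2⟩
  invFun y := ⟨⟨y.1, y.2.2⟩, (mem_NN_iff hQN _).2 y.2.1⟩
  left_inv x := rfl
  right_inv y := rfl
  map_mul' a b := rfl

theorem iota_coe (hQN : Q ≤ N) (x : NN N Q) : ((iota hQN x : LL N Q) : G) = ((x : N) : G) := rfl

theorem inducedCentralChar_iota (hQN : Q ≤ N) (ξ : LL N Q → ℂ) (n : N) :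
    inducedCentralChar (NN N Q) (ξ ∘ iota hQN) n = inducedCentralCharIn N (LL N Q) ξ (n : G) := by
  classical
  rw [inducedCentralChar_eq_sum, inducedCentralCharIn_eq_sum, ← Equiv.sum_comp (iota hQN).toEquiv]
  refine Finset.sum_congr rfl fun x _ => ?_
  have h1 : IsConj n (x : N) ↔ ∃ y : N, (y : G) * (((iota hQN).toEquiv x : LL N Q) : G) * (y : G)⁻¹ = n := by
    rw [isConj_comm, isConj_iff]
    constructor
    · rintro ⟨c, hc⟩
      exact ⟨c, congrArg Subtype.val hc⟩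
    · rintro ⟨c, hc⟩
      exact ⟨c, Subtype.ext hc⟩
  simp only [Function.comp, map_one, h1]
  rfl

theorem norm_LL {h : G} (hh : h ∈ HH Q) : h ∈ Subgroup.normalizer ((LL N Q : Subgroup G) : Set G) := by
  rw [Subgroup.mem_normalizer_iff]
  intro k
  constructor
  · rintro ⟨h1, h2⟩
    exact ⟨(HH Q).mul_mem ((HH Q).mul_mem hh h1) ((HH Q).inv_mem hh), hN.conj_mem _ h2 h⟩
  · rintro ⟨h1, h2⟩
    constructor
    · have := (HH Q).mul_mem ((HH Q).mul_mem ((HH Q).inv_mem hh) h1) hh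
      simpa [mul_assoc] using this
    · have := hN.conj_mem _ h2 h⁻¹
      simpa [mul_assoc] using this

theorem inducedIn_conj {h : G} (hh : h ∈ HH Q) (hL : h ∈ Subgroup.normalizer ((LL N Q : Subgroup G) : Set G))
    (ξ : LL N Q → ℂ) (v : G) :
    inducedCentralCharIn N (LL N Q) (ξ ∘ nConj hL) v = inducedCentralCharIn N (LL N Q) ξ (h * v * h⁻¹) := by
  classical
  rw [inducedCentralCharIn_eq_sum, inducedCentralCharIn_eq_sum, ← Equiv.sum_comp (nConj hL).toEquiv
    (fun k : LL N Q => if ∃ x : N, (x : G) * (k : G) * (x : G)⁻¹ = h * v * h⁻¹ then ξ k / ξ 1 else 0)]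
  refine Finset.sum_congr rfl fun l _ => ?_
  have h1 : (∃ x : N, (x : G) * (l : G) * (x : G)⁻¹ = v) ↔
      ∃ x : N, (x : G) * (((nConj hL).toEquiv l : LL N Q) : G) * (x : G)⁻¹ = h * v * h⁻¹ := by
    constructor
    · rintro ⟨x, hx⟩
      refine ⟨⟨h * x * h⁻¹, hN.conj_mem _ x.2 h⟩, ?_⟩
      show h * x * h⁻¹ * (h * l * h⁻¹) * (h * x * h⁻¹)⁻¹ = h * v * h⁻¹
      rw [← hx]
      group
    · rintro ⟨x, hx⟩
      refine ⟨⟨h⁻¹ * x * h, by simpa using hN.conj_mem _ x.2 h⁻¹⟩, ?_⟩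
      have hx' : (x : G) * (h * l * h⁻¹) * (x : G)⁻¹ = h * v * h⁻¹ := hx
      show h⁻¹ * x * h * l * (h⁻¹ * x * h)⁻¹ = v
      have e1 : v = h⁻¹ * (h * v * h⁻¹) * h := by group
      rw [e1, ← hx']
      group
  simp only [Function.comp, map_one, h1]
  rfl

end Cover

section Main

variable {G : Type*} [Group G] [Fintype G] {p : ℕ} [hp : Fact p.Prime] {M : Ideal AlgInt} [hMp : M.IsPrime]
  {N : Subgroup G} [hN : N.Normal] {Q : Subgroup G}

theorem isDefectGroup_NN (hQN : Q ≤ N) {e : Set (IrrCharacter (LL N Q))}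
    (heQ : IsDefectGroup p M e (Q.subgroupOf (LL N Q))) :
    IsDefectGroup p M (mapBlock (iota hQN).symm e) ((DD N Q).subgroupOf (NN N Q)) := by
  have h := isDefectGroup_mapBlock (p := p) (M := M) (iota hQN).symm heQ
  convert h using 1
  ext x
  constructor
  · intro hx
    refine ⟨iota hQN x, ?_, by simp⟩
    rw [Subgroup.mem_subgroupOf, Subgroup.mem_subgroupOf] at hx
    rw [SetLike.mem_coe, Subgroup.mem_subgroupOf]
    exact hx
  · rintro ⟨y, hy, rfl⟩
    rw [Subgroup.mem_subgroupOf, Subgroup.mem_subgroupOf]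
    rw [SetLike.mem_coe, Subgroup.mem_subgroupOf] at hy
    exact hy

theorem mapIrr_pull {H K : Type*} [Group H] [Group K] (φ : H ≃* K) (ξ : IrrCharacter K) :
    mapIrr φ (pull φ ξ) = ξ := by
  apply Subtype.ext
  funext v
  rw [mapIrr_apply', pull_coe]
  simp

theorem pull_mapIrr {H K : Type*} [Group H] [Group K] (φ : H ≃* K) (ξ : IrrCharacter H) :
    pull φ (mapIrr φ ξ) = ξ := by
  apply Subtype.ext
  funext v
  rw [pull_coe]
  simp [mapIrr_apply']

/-- Block induction in `N`, transported. -/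
theorem isInducedBlock_NN (hQN : Q ≤ N) {e : Set (IrrCharacter (LL N Q))} {d : Set (IrrCharacter N)}
    (hed : IsInducedBlockIn M N (LL N Q) e d) :
    IsInducedBlock M (NN N Q) (mapBlock (iota hQN).symm e) d := by
  refine ⟨isPBlock_mapBlock _ hed.1, hed.2.1, fun ξ₃ hξ₃ θ₃ hθ₃ v => ?_⟩
  rw [mem_mapBlock] at hξ₃
  have h1 := hed.2.2 _ hξ₃ θ₃ hθ₃ v
  rw [← inducedCentralChar_iota hQN] at h1
  have h2 : ((mapIrr (iota hQN).symm.symm ξ₃ : IrrCharacter (LL N Q)) : LL N Q → ℂ) ∘ iota hQN = (ξ₃ : NN N Q → ℂ) := by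
    funext w
    simp [mapIrr_apply', Function.comp]
  rw [h2] at h1
  exact h1

/-- **A block of `N_G(Q)` inducing a block over `d` covers `e`.** -/
theorem exists_cover_of_induced (hM : IsPModular p M) (hQ : IsPGroup p Q) (hQN : Q ≤ N)
    {d : Set (IrrCharacter N)} (hd : IsPBlock M d) (hdQ : IsDefectGroup p M d (Q.subgroupOf N))
    {e : Set (IrrCharacter (LL N Q))} (heQ : IsDefectGroup p M e (Q.subgroupOf (LL N Q)))
    (hed : IsInducedBlockIn M N (LL N Q) e d) {c : Set (IrrCharacter (HH Q))} {B : Set (IrrCharacter G)}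
    (hind : IsInducedBlock M (HH Q) c B) (hov : ∀ χ ∈ B, χ ∈ overSet N (sat N d))
    {ψ : IrrCharacter (HH Q)} (hψ : ψ ∈ c) :
    ∃ ξ ∈ e, classInner (fun l : LL N Q => (ψ : HH Q → ℂ) (Subgroup.inclusion inf_le_left l)) (ξ : LL N Q → ℂ) ≠ 0 := by
  classical
  set E := blockElt (sat N d) with hE
  have hEc : IsCentralElt E := isCentralElt_blockElt _
  have hEl : LocalCoeff M E := localCoeff_blockElt (isBlockUnion_sat N (isBlockUnion_of_isPBlock hd))
  have hXc : IsCentralElt (incl N E) := isCentralElt_incl_blockElt N (isStable_sat N d)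
  have hXl : LocalCoeff M (incl N E) := localCoeff_incl _ hEl
  obtain ⟨χ, hχ⟩ := IsPBlock_nonempty hind.2.1
  have hcf := IsCharacter.isClassFunction (IsIrrCharacter.isCharacter χ.2)
  have a1 := memLocalIdeal_om_resAlg_sub (HH Q) hcf (hind.2.2 ψ hψ χ hχ) hXc hXl
  rw [hE, om_over_of_mem N (isStable_sat N d) (hov χ hχ), ← hE] at a1
  obtain ⟨θ₀, hθ₀⟩ := exists_constituent (Ls N Q) ψ
  set ξ : IrrCharacter (LL N Q) := mapIrr (phi N Q) θ₀ with hξdef
  have hξs : mapIrr (phi N Q).symm ξ = θ₀ := mapIrr_symm_mapIrr _ _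
  have hc0 : classInner (fun l : LL N Q => (ψ : HH Q → ℂ) (Subgroup.inclusion inf_le_left l)) (ξ : LL N Q → ℂ) ≠ 0 := by
    rw [classInner_Ls, hξs]
    exact hθ₀
  have a2 := om_res_eq_of_constituent ψ ξ hc0 hXc (fun g hg => coeff_incl_of_notMem _ _ hg)
  rw [a2] at a1
  -- inside `N`
  have hDp : IsPGroup p (DD N Q) := hQ.comap_of_injective _ (Subgroup.subtype_injective _)
  set ι := iota hQN with hι
  set ξ' : IrrCharacter (NN N Q) := pull ι ξ with hξ'
  obtain ⟨θ', hθ'⟩ := exists_irr_congruent (M := M) hM hDp (le_normalizer_self (DD N Q))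
    (centralizer_le_normalizer_self (DD N Q)) le_rfl ξ'
  have hind' : ∀ n : N, MemLocalIdeal M (inducedCentralCharIn N (LL N Q) (ξ : LL N Q → ℂ) (n : G) -
      centralChar (θ' : N → ℂ) n) := by
    intro n
    have := hθ' n
    rwa [hξ', pull_coe, inducedCentralChar_iota] at this
  have hcfθ := IsCharacter.isClassFunction (IsIrrCharacter.isCharacter θ'.2)
  have a3 := memLocalIdeal_om_resAlg_incl_sub (inf_le_right : LL N Q ≤ N) hcfθ hind' hEc hEl
  have hmem : θ' ∈ sat N d := by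
    by_contra hn
    rw [hE, om_blockElt_of_notMem hn, sub_zero, ← hE] at a3
    have : MemLocalIdeal M (1 : ℂ) := by
      have := memLocalIdeal_sub a3 a1
      simpa using this
    exact not_memLocalIdeal_one this
  obtain ⟨g, θ₁, hθ₁, hg⟩ := hmem
  set x : G := g⁻¹ with hx
  have hmemx : conjIrr N x θ' ∈ d := by
    rw [hg, hx, conjIrr_inv_conjIrr]
    exact hθ₁
  have hd'eq : blockOf M (θ' : N → ℂ) = blockConj N x d :=
    (blockOf_eq_of_mem (isPBlock_blockConj N x hd) (mem_blockConj N |>.2 hmemx)).symm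
  set d' := blockOf M (θ' : N → ℂ) with hd'def
  have hd' : IsPBlock M d' := isPBlock_blockOf θ'
  have hfind : IsInducedBlock M (NN N Q) (blockOf M (ξ' : NN N Q → ℂ)) d' :=
    ⟨isPBlock_blockOf ξ', hd', fun ξ₂ hξ₂ χ₂ hχ₂ n =>
      memLocalIdeal_sub_trans (memLocalIdeal_induced_sub_of_sameBlock ξ₂.2 ξ'.2 (sameBlock_symm hξ₂) n)
        (memLocalIdeal_sub_trans (hθ' n) (hχ₂ n))⟩
  obtain ⟨Df, hDf⟩ := Cfsg.Agent.Lib.Block.exists_isDefectGroup hM (isPBlock_blockOf ξ')
  haveI hDn : ((DD N Q).subgroupOf (NN N Q)).Normal := normal_subgroupOf_normalizer _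
  have hDle := normal_le_defect (Q := (DD N Q).subgroupOf (NN N Q)) hM
    (hDp.comap_of_injective _ (Subgroup.subtype_injective _)) (isPBlock_blockOf ξ') hDf
  obtain ⟨E', hE', hle⟩ := defect_le_of_induced hM (NN N Q) hfind hDf
  have hDE : DD N Q ≤ E' := by
    intro v hv
    refine hle ⟨⟨v, le_normalizer_self _ hv⟩, hDle ?_, rfl⟩
    rw [Subgroup.mem_subgroupOf]
    exact hv
  have hcard : Nat.card E' = Nat.card (DD N Q) := by
    rw [card_defect_group hM hd' hE', hd'eq, blockDefect_blockConj, ← card_defect_group hM hd hdQ]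
  have hED : DD N Q = E' := Subgroup.eq_of_le_of_card_ge hDE (le_of_eq hcard)
  have hxN : x ∈ Subgroup.normalizer ((N : Subgroup G) : Set G) := by
    rw [Subgroup.normalizer_eq_top]
    trivial
  have hbc : blockConj N x d = mapBlock (nConj hxN) d := by
    ext ψ'
    rw [mem_blockConj, mem_mapBlock]
    have : conjIrr N x ψ' = mapIrr (nConj hxN).symm ψ' := by
      apply Subtype.ext
      funext w
      rw [mapIrr_apply', conjIrr_coe]
      rfl
    rw [this]
  have hD2 := isDefectGroup_mapBlock (p := p) (M := M) (nConj hxN) hdQ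
  rw [← hbc, ← hd'eq] at hD2
  rw [← hED] at hE'
  obtain ⟨n, hn⟩ := exists_conj_of_defect hM hd' hD2 hE'
  set h : G := (n : G) * x with hh
  have hhQ : ∀ q ∈ Q, h * q * h⁻¹ ∈ Q := by
    intro q hq
    have h1 : (⟨q, hQN hq⟩ : N) ∈ DD N Q := by
      rw [Subgroup.mem_subgroupOf]
      exact hq
    have h2 : nConj hxN ⟨q, hQN hq⟩ ∈ (DD N Q).map (nConj hxN).toMonoidHom := ⟨_, h1, rfl⟩
    have h3 : n * nConj hxN ⟨q, hQN hq⟩ * n⁻¹ ∈ cj n ((DD N Q).map (nConj hxN).toMonoidHom) := by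
      refine ⟨_, h2, ?_⟩
      simp
    rw [← hn, Subgroup.mem_subgroupOf] at h3
    have e1 : ((n * nConj hxN ⟨q, hQN hq⟩ * n⁻¹ : N) : G) = h * q * h⁻¹ := by
      simp only [Subgroup.coe_mul, nConj_coe, InvMemClass.coe_inv, hh, mul_inv_rev]
      group
    rwa [e1] at h3
  have hH : h ∈ HH Q := mem_normalizer_of_conj_mem' hhQ
  have hconj : conjIrr N h θ' = conjIrr N x θ' := by
    rw [hh, conjIrr_mul]
    congr 1
    apply Subtype.ext
    funext w
    rw [conjIrr_coe]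
    exact hcfθ w n
  set θ₂ := conjIrr N h θ' with hθ₂def
  have hθ₂ : θ₂ ∈ d := by
    rw [hconj]
    exact hmemx
  have hL : h ∈ Subgroup.normalizer ((LL N Q : Subgroup G) : Set G) := norm_LL hH
  set ξ₂ : IrrCharacter (LL N Q) := pull (nConj hL) ξ with hξ₂
  have hind₂ : ∀ v : N, MemLocalIdeal M (inducedCentralCharIn N (LL N Q) (ξ₂ : LL N Q → ℂ) (v : G) -
      centralChar (θ₂ : N → ℂ) v) := by
    intro v
    have e1 : (θ₂ : N → ℂ) = (θ' : N → ℂ) ∘ conjEquiv hN h := rfl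
    rw [hξ₂, pull_coe, inducedIn_conj hH hL, e1, centralChar_comp_equiv]
    exact hind' (conjEquiv hN h v)
  -- the uniqueness in the first main theorem
  have hDb := isDefectGroup_NN (p := p) (M := M) hQN heQ
  have hb_ind := isInducedBlock_NN hQN hed
  have hf2 : IsInducedBlock M (NN N Q) (blockOf M (pull ι ξ₂ : NN N Q → ℂ)) d := by
    refine ⟨isPBlock_blockOf _, hd, fun ξ₄ hξ₄ θ₄ hθ₄ v => ?_⟩
    have e1 := hind₂ v
    rw [← inducedCentralChar_iota hQN] at e1
    have e2 := sameBlock_of_mem hd hθ₂ hθ₄ v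
    exact memLocalIdeal_sub_trans (memLocalIdeal_induced_sub_of_sameBlock ξ₄.2 (pull ι ξ₂).2 (sameBlock_symm hξ₄) v)
      (memLocalIdeal_sub_trans e1 e2)
  have heq := block_unique_of_induced hM hDp hDb hb_ind hf2
  have hmem2 : pull ι ξ₂ ∈ mapBlock (iota hQN).symm e := by
    rw [← heq]
    exact mem_blockOf_self _
  rw [mem_mapBlock] at hmem2
  have hξ₂e : ξ₂ ∈ e := by
    have e1 : mapIrr (iota hQN).symm.symm (pull ι ξ₂) = ξ₂ := mapIrr_pull ι ξ₂
    rwa [e1] at hmem2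
  refine ⟨ξ₂, hξ₂e, ?_⟩
  have hfin : classInner (fun l : LL N Q => (ψ : HH Q → ℂ) (Subgroup.inclusion inf_le_left l)) (ξ₂ : LL N Q → ℂ) =
      classInner (fun l : LL N Q => (ψ : HH Q → ℂ) (Subgroup.inclusion inf_le_left l)) (ξ : LL N Q → ℂ) := by
    unfold classInner
    congr 1
    rw [← Equiv.sum_comp (nConj hL).toEquiv (fun l : LL N Q =>
      (ψ : HH Q → ℂ) (Subgroup.inclusion inf_le_left l) * conj ((ξ : LL N Q → ℂ) l))]
    refine Finset.sum_congr rfl fun l _ => ?_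
    have hcfψ := IsCharacter.isClassFunction (IsIrrCharacter.isCharacter ψ.2)
    have e1 := hcfψ (Subgroup.inclusion inf_le_left l) (⟨h, hH⟩ : HH Q)
    have e2 : (Subgroup.inclusion (inf_le_left : LL N Q ≤ HH Q) ((nConj hL).toEquiv l)) =
        (⟨h, hH⟩ : HH Q) * Subgroup.inclusion inf_le_left l * (⟨h, hH⟩ : HH Q)⁻¹ := rfl
    rw [e2, e1, hξ₂, pull_coe]
    rfl
  rw [hfin]
  exact hc0

end Main

section Final

variable {G : Type*} [Group G] [Fintype G] {p : ℕ} [hp : Fact p.Prime] {M : Ideal AlgInt}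
  {N : Subgroup G} [hN : N.Normal] {Q : Subgroup G}

theorem eq_of_isInducedBlock (hM : IsPModular p M) {H : Subgroup G} {c : Set (IrrCharacter H)} {B B' : Set (IrrCharacter G)}
    (h : IsInducedBlock M H c B) (h' : IsInducedBlock M H c B') : B' = B := by
  have := isPModular_isPrime hM
  obtain ⟨ψ, hψ⟩ := IsPBlock_nonempty h.1
  obtain ⟨χ, hχ⟩ := IsPBlock_nonempty h.2.1
  obtain ⟨χ', hχ'⟩ := IsPBlock_nonempty h'.2.1
  have hs : χ' ∈ B := by
    rw [blockOf_eq_of_mem h.2.1 hχ]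
    intro g
    have a1 := h.2.2 ψ hψ χ hχ g
    have a2 := h'.2.2 ψ hψ χ' hχ' g
    rw [memLocalIdeal_sub_comm] at a1
    exact memLocalIdeal_sub_trans a1 a2
  exact blocks_eq_or_disjoint h'.2.1 h.2.1 hχ' hs

/-- **The Harris–Knörr correspondence.** -/
theorem harris_knorr (hM : IsPModular p M) (hQ : IsPGroup p Q) (hQN : Q ≤ N) (d : Set (IrrCharacter N)) (hd : IsPBlock M d)
    (hdQ : IsDefectGroup p M d (Q.subgroupOf N)) (e : Set (IrrCharacter (LL N Q))) (he : IsPBlock M e)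
    (heQ : IsDefectGroup p M e (Q.subgroupOf (LL N Q))) (hed : IsInducedBlockIn M N (LL N Q) e d) :
    (∀ c : Set (IrrCharacter (HH Q)), IsPBlock M c →
      (∃ ψ ∈ c, ∃ ξ ∈ e, classInner (fun l : LL N Q => (ψ : HH Q → ℂ) (Subgroup.inclusion inf_le_left l))
        (ξ : LL N Q → ℂ) ≠ 0) →
      ∃! B : Set (IrrCharacter G), IsInducedBlock M (HH Q) c B ∧
        (∃ χ ∈ B, ∃ θ ∈ d, classInner (fun n : N => (χ : G → ℂ) n) (θ : N → ℂ) ≠ 0)) ∧
    (∀ B : Set (IrrCharacter G), IsPBlock M B →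
      (∃ χ ∈ B, ∃ θ ∈ d, classInner (fun n : N => (χ : G → ℂ) n) (θ : N → ℂ) ≠ 0) →
      ∃! c : Set (IrrCharacter (HH Q)), (IsPBlock M c ∧ ∃ ψ ∈ c, ∃ ξ ∈ e,
        classInner (fun l : LL N Q => (ψ : HH Q → ℂ) (Subgroup.inclusion inf_le_left l)) (ξ : LL N Q → ℂ) ≠ 0) ∧
        IsInducedBlock M (HH Q) c B) := by
  classical
  have := isPModular_isPrime hM
  have hbQ := isDefectGroup_Ls (p := p) (M := M) heQ
  have hbb : IsPBlock M (mapBlock (phi N Q).symm e) := isPBlock_mapBlock _ he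
  have hcovL : ∀ (c : Set (IrrCharacter (HH Q))),
      (∃ ψ ∈ c, ∃ ξ ∈ e, classInner (fun l : LL N Q => (ψ : HH Q → ℂ) (Subgroup.inclusion inf_le_left l))
        (ξ : LL N Q → ℂ) ≠ 0) → ∃ ψ ∈ c, ∃ θ ∈ mapBlock (phi N Q).symm e,
          classInner (fun n : Ls N Q => (ψ : HH Q → ℂ) n) (θ : Ls N Q → ℂ) ≠ 0 := by
    rintro c ⟨ψ, hψ, ξ, hξ, h⟩
    refine ⟨ψ, hψ, mapIrr (phi N Q).symm ξ, ?_, ?_⟩
    · rw [mapIrr_mem_mapBlock]
      exact hξ
    · rwa [← classInner_Ls]
  refine ⟨?_, ?_⟩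
  · rintro c hc ⟨ψ, hψ, ξ, hξ, h⟩
    obtain ⟨B, hB⟩ := inducedBlockDefined_of_normalizer hM hQ (le_normalizer_self Q)
      (centralizer_le_normalizer_self Q) le_rfl hc
    refine ⟨B, ⟨hB, ?_⟩, fun B' hB' => eq_of_isInducedBlock hM hB hB'.1⟩
    obtain ⟨χ, hχ⟩ := IsPBlock_nonempty hB.2.1
    have h1 := mem_over_of_cover hd hed hB hψ hξ h hχ
    rw [over_sat_iff] at h1
    obtain ⟨θ, hθ, hne⟩ := h1
    exact ⟨χ, hχ, θ, hθ, hne⟩
  · rintro B hB ⟨χ, hχ, θ, hθ, h⟩
    have hov : ∀ χ' ∈ B, χ' ∈ overSet N (sat N d) := by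
      intro χ' hχ'
      have h1 : χ ∈ overSet N (sat N d) := ⟨θ, subset_sat N _ hθ, h⟩
      by_contra h2
      exact isBlockUnion_over N (isStable_sat N d) (isBlockUnion_sat N (isBlockUnion_of_isPBlock hd)) χ h1 χ' h2
        (sameBlock_of_mem hB hχ hχ')
    obtain ⟨P, hP, hinf⟩ := exists_defect_inf_eq N hM hB hd ⟨χ, hχ, θ, hθ, h⟩ hQN hdQ
    have hQP : Q ≤ P := by
      rw [← hinf]
      exact inf_le_left
    obtain ⟨y, hy, S, rfl⟩ := hP
    have hyC : y ∈ Subgroup.centralizer (Q : Set G) := by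
      refine Subgroup.mem_centralizer_iff.mpr fun q hq => ?_
      obtain ⟨s, _, hs⟩ := hQP hq
      rw [← hs]
      exact (Subgroup.mem_centralizer_singleton_iff.mp s.2)
    obtain ⟨c, hc⟩ := exists_block_inducing hM hQ (le_normalizer_self Q) (centralizer_le_normalizer_self Q) le_rfl hB
      hy.2.1 hyC
    obtain ⟨ψ, hψ⟩ := IsPBlock_nonempty hc.1
    obtain ⟨ξ, hξ, hne⟩ := exists_cover_of_induced hM hQ hQN hd hdQ heQ hed hc hov hψ
    refine ⟨c, ⟨⟨hc.1, ψ, hψ, ξ, hξ, hne⟩, hc⟩, ?_⟩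
    rintro c' ⟨⟨hc', hcov'⟩, hind'⟩
    exact (eq_of_induced_of_cover hM hQ hQN hbb hbQ (hcovL c' hcov') hind' hc).symm

end Final

end Cfsg.Agent.Lib.BPair
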