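import Cfsg.Agent.Lib.BPair.Fusion
import Cfsg.Agent.Lib.Block.Kernel
import Cfsg.Agent.Lib.Transfer.Frobenius
import Cfsg.Agent.Lib.FrobThm.PNil
import Cfsg.Prelude.Def_BlockRank

/-!
# The nilpotent principal block
-/

set_option autoImplicit false
set_option linter.unusedSectionVars false
set_option linter.unusedSimpArgs false
set_option linter.unusedVariables false

open scoped ComplexConjugate
open Cfsg MonoidAlgebra
open Cfsg.Agent.Lib.Block Cfsg.Agent.Lib.Char Cfsg.Agent.Lib.CharExtra

namespace Cfsg.Agent.Lib.BPair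

attribute [local instance] subFintype

section

variable {G : Type*} [Group G] [Fintype G] {M : Ideal AlgInt} [hMp : M.IsPrime] {p : ℕ} [hp : Fact p.Prime]

theorem stabilizes_principal {Q : Subgroup G} {g : G} (hg : g ∈ Subgroup.normalizer (Q : Set G)) :
    StabilizesBlock (Cen Q) (principalBlock M (Cen Q)) g := by
  have hN := normalizer_le_normalizer_cen hg
  refine (stabilizes_iff isPBlock_principalBlock).2 ⟨hN, ?_⟩
  refine blocks_eq_or_disjoint (isPBlock_mapBlock _ isPBlock_principalBlock) isPBlock_principalBlock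
    (θ := oneIrr (Cen Q)) ?_ oneIrr_mem_principalBlock
  rw [mem_mapBlock]
  have : mapIrr (nConj hN).symm (oneIrr (Cen Q)) = oneIrr (Cen Q) := by
    apply Subtype.ext
    funext c
    rfl
  rw [this]
  exact oneIrr_mem_principalBlock

/-- **`G` is `p`-nilpotent iff its principal block is nilpotent.** -/
theorem hasNormalPComplement_iff_nilpotent (hM : IsPModular p M) :
    HasNormalPComplement p G ↔ IsNilpotentBlock p M (principalBlock M G) := by
  classical
  constructor
  · rintro ⟨P, N, hN, hc⟩
    refine ⟨isPBlock_principalBlock, fun Q e he x hx hst hreg => ?_⟩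
    have hQ := (isBrauerPairOf_iff.1 he).1.1
    have hxc : Nat.Coprime (orderOf x) p := ((Nat.Prime.coprime_iff_not_dvd hp.out).2 hreg).symm
    have hxN : x ∈ N := (Cfsg.Agent.Lib.Transfer.mem_of_coprime_of_complement hc x).2 hxc
    rw [Subgroup.mem_centralizer_iff]
    intro u hu
    have h1 : x * u * x⁻¹ * u⁻¹ ∈ N := by
      have e : x * u * x⁻¹ * u⁻¹ = x * (u * x⁻¹ * u⁻¹) := by group
      rw [e]
      exact N.mul_mem hxN (hN.conj_mem _ (N.inv_mem hxN) u)
    have h2 : x * u * x⁻¹ * u⁻¹ ∈ Q :=
      Q.mul_mem ((Subgroup.mem_normalizer_iff.1 hx u).1 hu) (Q.inv_mem hu)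
    have h3 := Cfsg.Agent.Lib.Transfer.eq_one_of_coprime_of_isPGroup hQ h2
      ((Cfsg.Agent.Lib.Transfer.mem_of_coprime_of_complement hc _).1 h1)
    have h4 : x * u * x⁻¹ = u := mul_inv_eq_one.1 h3
    have h5 : x * u = u * x := mul_inv_eq_iff_eq_mul.1 h4
    exact h5.symm
  · rintro ⟨-, hnil⟩
    obtain ⟨P⟩ : Nonempty (Sylow p G) := inferInstance
    obtain ⟨N, hN, hc⟩ := Cfsg.Agent.Lib.Transfer.frobenius P (by
      intro Q hQP g hg hgc
      have hQ : IsPGroup p Q := P.isPGroup'.to_le hQP
      refine hnil Q (principalBlock M (Cen Q)) ?_ g hg (stabilizes_principal hg) ?_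
      · exact (isBrauerPairOf_principal_iff hM hQ isPBlock_principalBlock).2 rfl
      · exact (Nat.Prime.coprime_iff_not_dvd hp.out).1 hgc.symm)
    exact ⟨P, N, hN, hc⟩

/-- **`G` is `p`-nilpotent iff its principal block has rank one.** -/
theorem hasNormalPComplement_iff_rank (hM : IsPModular p M) :
    HasNormalPComplement p G ↔ blockRank p (principalBlock M G) = 1 := by
  classical
  have hv : pRegularPart p ((oneIrr G : IrrCharacter G) : G → ℂ) ≠ 0 := by
    intro h
    have h1 := congrFun h 1
    unfold pRegularPart at h1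
    have hreg : IsPRegular p (1 : G) := by
      unfold IsPRegular
      rw [orderOf_one]
      exact hp.out.one_lt.not_ge ∘ Nat.le_of_dvd one_pos
    simp [hreg, oneIrr_coe] at h1
  constructor
  · rintro ⟨P, N, hN, hc⟩
    haveI := hN
    haveI : Fintype N := Fintype.ofFinite _
    have hreg : ∀ x : G, IsPRegular p x → x ∈ N := fun x hx =>
      (Cfsg.Agent.Lib.Transfer.mem_of_coprime_of_complement hc x).2
        ((Nat.Prime.coprime_iff_not_dvd hp.out).2 hx).symm
    have hN' : ¬ p ∣ Nat.card N := by
      intro hd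
      obtain ⟨x, hx⟩ := exists_prime_orderOf_dvd_card' p hd
      have h1 := (Cfsg.Agent.Lib.Transfer.mem_of_coprime_of_complement hc (x : G)).1 x.2
      rw [Subgroup.orderOf_coe, hx] at h1
      exact hp.out.one_lt.ne' (by simpa using h1)
    have hspan : Submodule.span ℂ ((fun χ : IrrCharacter G => pRegularPart p (χ : G → ℂ)) '' principalBlock M G) =
        Submodule.span ℂ {pRegularPart p ((oneIrr G : IrrCharacter G) : G → ℂ)} := by
      apply le_antisymm
      · refine Submodule.span_le.2 ?_
        rintro _ ⟨χ, hχ, rfl⟩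
        have h1 := ker_of_principal N hM hN' hχ
        have h2 : pRegularPart p (χ : G → ℂ) =
            ((χ : G → ℂ) 1) • pRegularPart p ((oneIrr G : IrrCharacter G) : G → ℂ) := by
          funext x
          unfold pRegularPart
          by_cases hx : IsPRegular p x
          · simp [hx, oneIrr_coe, h1 x (hreg x hx)]
          · simp [hx]
        show pRegularPart p (χ : G → ℂ) ∈ _
        rw [h2]
        exact Submodule.smul_mem _ _ (Submodule.mem_span_singleton_self _)
      · refine Submodule.span_mono ?_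
        rintro _ rfl
        exact ⟨oneIrr G, oneIrr_mem_principalBlock, rfl⟩
    unfold blockRank
    rw [hspan]
    exact finrank_span_singleton hv
  · intro h
    unfold blockRank at h
    obtain ⟨S, hS⟩ : ∃ S, S = Submodule.span ℂ ((fun χ : IrrCharacter G => pRegularPart p (χ : G → ℂ)) '' principalBlock M G) := ⟨_, rfl⟩
    rw [← hS] at h
    have hmem : ∀ χ ∈ principalBlock M G, pRegularPart p ((χ : IrrCharacter G) : G → ℂ) ∈ S := by
      intro χ hχ
      rw [hS]
      exact Submodule.subset_span ⟨χ, hχ, rfl⟩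
    have hv' : (⟨_, hmem _ oneIrr_mem_principalBlock⟩ : S) ≠ 0 := by
      intro h0
      exact hv (congrArg Subtype.val h0)
    have hb := (finrank_eq_one_iff_of_nonzero' _ hv').1 h
    have hone : IsPRegular p (1 : G) := by
      unfold IsPRegular
      rw [orderOf_one]
      exact hp.out.one_lt.not_ge ∘ Nat.le_of_dvd one_pos
    have hker : ∀ χ ∈ principalBlock M G, ∀ x : G, IsPRegular p x → (χ : G → ℂ) x = (χ : G → ℂ) 1 := by
      intro χ hχ x hx
      obtain ⟨c, hc⟩ := hb ⟨_, hmem χ hχ⟩
      have hc' := congrArg Subtype.val hc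
      have h1 := congrFun hc' x
      have h2 := congrFun hc' 1
      simp only [Submodule.coe_smul, Pi.smul_apply, smul_eq_mul, pRegularPart, hx, hone, if_true, oneIrr_coe, mul_one] at h1 h2
      rw [← h1, ← h2]
    have hK : ∀ x : G, IsPRegular p x → x ∈ blockKerSubgroup (principalBlock M G) := fun x hx χ hχ => hker χ hχ x hx
    have hK' := not_dvd_card_blockKer (M := M) hM (isPBlock_principalBlock (G := G))
    have hK2 : ∀ x ∈ blockKerSubgroup (principalBlock M G), IsPRegular p x := by
      intro x hx hd
      apply hK'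
      have h1 : orderOf (⟨x, hx⟩ : blockKerSubgroup (principalBlock M G)) = orderOf x := Subgroup.orderOf_mk _ _
      rw [← h1] at hd
      exact hd.trans (orderOf_dvd_natCard _)
    apply Cfsg.Agent.Lib.FrobThm.hasNormalPComplement_of_pNil_top
    intro x _ y _ hx hy
    have hx' : IsPRegular p x := (Nat.Prime.coprime_iff_not_dvd hp.out).1 hx.symm
    have hy' : IsPRegular p y := (Nat.Prime.coprime_iff_not_dvd hp.out).1 hy.symm
    have := hK2 _ (Subgroup.mul_mem _ (hK x hx') (hK y hy'))
    exact ((Nat.Prime.coprime_iff_not_dvd hp.out).2 this).symm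

end

end Cfsg.Agent.Lib.BPair
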