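import Cfsg.Agent.Lib.BPair.FongHeight
import Cfsg.Agent.Lib.Block.MinMax
import Cfsg.Agent.Lib.Block.Quot
import Cfsg.Agent.Lib.Block.FirstMain
import Cfsg.Agent.Lib.Degree.Inflate
import Cfsg.Agent.Lib.CharExtra.DefectClass

/-!
# Defect groups and quotient groups

If `B̄` is a block of `G ⧸ N` contained in the block `B` of `G`, then each defect group of `B̄` lies in the
image of a defect group of `B`; for a normal `p`-subgroup `N`, some block `B̄` has the images of the defect groups
of `B` as its defect groups.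
-/

set_option autoImplicit false
set_option linter.unusedSectionVars false
set_option linter.unusedSimpArgs false
set_option linter.unusedVariables false

open scoped ComplexConjugate
open Cfsg MonoidAlgebra
open Cfsg.Agent.Lib.Block Cfsg.Agent.Lib.Char Cfsg.Agent.Lib.CharExtra

namespace Cfsg.Agent.Lib.BPair

universe u

section Quot

variable {G : Type u} [Group G] [Fintype G] (N : Subgroup G) [hN : N.Normal]

theorem le_comap_centralizer (x : G) : Subgroup.centralizer ({x} : Set G) ≤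
    (Subgroup.centralizer ({(x : G ⧸ N)} : Set (G ⧸ N))).comap (QuotientGroup.mk' N) := by
  intro g hg
  rw [Subgroup.mem_comap, Subgroup.mem_centralizer_singleton_iff]
  rw [Subgroup.mem_centralizer_singleton_iff] at hg
  simp only [QuotientGroup.mk'_apply]
  rw [← QuotientGroup.mk_mul, hg, QuotientGroup.mk_mul]

/-- The ratio of the class sizes of `x` and of its image in `G ⧸ N`. -/
noncomputable def quotMul (x : G) : ℕ :=
  (Subgroup.centralizer ({x} : Set G)).relIndex
    ((Subgroup.centralizer ({(x : G ⧸ N)} : Set (G ⧸ N))).comap (QuotientGroup.mk' N))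

theorem index_centralizer_eq (x : G) : (Subgroup.centralizer ({x} : Set G)).index =
    quotMul N x * (Subgroup.centralizer ({(x : G ⧸ N)} : Set (G ⧸ N))).index := by
  unfold quotMul
  rw [← Subgroup.relIndex_mul_index (le_comap_centralizer N x),
    Subgroup.index_comap_of_surjective _ (QuotientGroup.mk'_surjective N)]

theorem centralChar_of_comp {χ : G ⧸ N → ℂ} {ψ : G → ℂ} (h : ψ = χ ∘ (QuotientGroup.mk : G → G ⧸ N)) (x : G) :
    centralChar ψ x = (quotMul N x : ℂ) * centralChar χ (x : G ⧸ N) := by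
  subst h
  unfold centralChar
  rw [index_centralizer_eq N x]
  simp only [Function.comp, QuotientGroup.mk_one]
  push_cast
  ring

variable {p : ℕ} [hp : Fact p.Prime] {M : Ideal AlgInt}

theorem of_centralChar_inflate [Fintype (G ⧸ N)] (hM : IsPModular p M) {χ : IrrCharacter (G ⧸ N)} {ψ : G → ℂ}
    (h : ψ = (χ : G ⧸ N → ℂ) ∘ (QuotientGroup.mk : G → G ⧸ N)) {x : G}
    (hc : ¬ MemLocalIdeal M (centralChar ψ x)) :
    ¬ p ∣ quotMul N x ∧ ¬ MemLocalIdeal M (centralChar (χ : G ⧸ N → ℂ) (x : G ⧸ N)) := by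
  have := isPModular_isPrime hM
  rw [centralChar_of_comp N h x] at hc
  constructor
  · intro hd
    exact hc (memLocalIdeal_mul_right ((memLocalIdeal_natCast_iff hM _).mpr hd)
      (memLocalRing_centralChar χ.2 _))
  · intro hd
    exact hc (memLocalIdeal_mul_left (memLocalRing_natCast _) hd)

/-- The image of a Sylow subgroup of `C_G(x)` is a Sylow subgroup of `C_{G/N}(x̄)` when the class ratio is prime to `p`. -/
theorem exists_sylow_image {x : G} (hm : ¬ p ∣ quotMul N x) (P : Sylow p (Subgroup.centralizer ({x} : Set G))) :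
    ∃ D : Sylow p (Subgroup.centralizer ({(x : G ⧸ N)} : Set (G ⧸ N))),
      (D : Subgroup (Subgroup.centralizer ({(x : G ⧸ N)} : Set (G ⧸ N)))).map (Subgroup.subtype _) =
        ((P : Subgroup (Subgroup.centralizer ({x} : Set G))).map (Subgroup.centralizer ({x} : Set G)).subtype).map (QuotientGroup.mk' N) := by
  classical
  set C' : Subgroup G := (Subgroup.centralizer ({(x : G ⧸ N)} : Set (G ⧸ N))).comap (QuotientGroup.mk' N) with hC'
  have hle : Subgroup.centralizer ({x} : Set G) ≤ C' := le_comap_centralizer N x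
  set P₀ : Subgroup G := (P : Subgroup (Subgroup.centralizer ({x} : Set G))).map (Subgroup.centralizer ({x} : Set G)).subtype with hP₀
  have hP₀le : P₀ ≤ C' := by
    rintro _ ⟨u, _, rfl⟩
    exact hle u.2
  have hcardP₀ : Nat.card P₀ = Nat.card (P : Subgroup (Subgroup.centralizer ({x} : Set G))) :=
    Subgroup.card_map_of_injective (Subgroup.subtype_injective _)
  have hcardsub : Nat.card (P₀.subgroupOf C') = Nat.card P₀ :=
    Nat.card_congr (Subgroup.subgroupOfEquivOfLe hP₀le).toEquiv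
  have hcardC' : Nat.card C' = quotMul N x * Nat.card (Subgroup.centralizer ({x} : Set G)) := by
    unfold quotMul
    have h1 := Subgroup.card_mul_index ((Subgroup.centralizer ({x} : Set G)).subgroupOf C')
    rw [Nat.card_congr (Subgroup.subgroupOfEquivOfLe hle).toEquiv] at h1
    rw [mul_comm]
    exact h1.symm
  have hfact : (Nat.card C').factorization p = (Nat.card (Subgroup.centralizer ({x} : Set G))).factorization p := by
    have hm0 : quotMul N x ≠ 0 := fun h0 => hm (by rw [h0]; exact dvd_zero _)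
    rw [hcardC', Nat.factorization_mul hm0 Nat.card_pos.ne']
    simp [Nat.factorization_eq_zero_of_not_dvd hm]
  have hcard : Nat.card (P₀.subgroupOf C') = p ^ (Nat.card C').factorization p := by
    rw [hcardsub, hcardP₀, hfact]
    exact Sylow.card_eq_multiplicity P
  let Q : Sylow p C' := Sylow.ofCard _ hcard
  let f : C' →* Subgroup.centralizer ({(x : G ⧸ N)} : Set (G ⧸ N)) :=
    MonoidHom.codRestrict ((QuotientGroup.mk' N).comp C'.subtype) _ (fun c => c.2)
  have hf : Function.Surjective f := by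
    rintro ⟨y, hy⟩
    obtain ⟨g, rfl⟩ := QuotientGroup.mk_surjective y
    refine ⟨⟨g, hy⟩, ?_⟩
    apply Subtype.ext
    rfl
  refine ⟨Q.mapSurjective hf, ?_⟩
  ext y
  simp only [Subgroup.mem_map, Sylow.coe_mapSurjective]
  constructor
  · rintro ⟨_, ⟨c, hc, rfl⟩, rfl⟩
    have hc' : c ∈ P₀.subgroupOf C' := hc
    exact ⟨(c : G), Subgroup.mem_subgroupOf.mp hc', rfl⟩
  · rintro ⟨g, hg, rfl⟩
    refine ⟨f ⟨g, hP₀le hg⟩, ⟨⟨g, hP₀le hg⟩, ?_, rfl⟩, rfl⟩
    exact Subgroup.mem_subgroupOf.mpr hg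

theorem map_mk_conj (D : Subgroup G) (y : G) :
    (D.map (MulAut.conj y).toMonoidHom).map (QuotientGroup.mk' N) =
      (D.map (QuotientGroup.mk' N)).map (MulAut.conj (y : G ⧸ N)).toMonoidHom := by
  ext z
  simp only [Subgroup.mem_map]
  constructor
  · rintro ⟨_, ⟨d, hd, rfl⟩, rfl⟩
    exact ⟨_, ⟨d, hd, rfl⟩, by simp [MulAut.conj_apply]⟩
  · rintro ⟨_, ⟨d, hd, rfl⟩, rfl⟩
    exact ⟨_, ⟨d, hd, rfl⟩, by simp [MulAut.conj_apply]⟩

variable [Fintype (G ⧸ N)]

/-- **Defect groups of a block of the quotient contained in `B`.** -/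
theorem defect_quot_le (hM : IsPModular p M) {Bbar : Set (IrrCharacter (G ⧸ N))} (hBbar : IsPBlock M Bbar)
    {B : Set (IrrCharacter G)} (hB : IsPBlock M B)
    (hsub : ∀ χ ∈ Bbar, ∀ ψ : IrrCharacter G, (ψ : G → ℂ) = (χ : G ⧸ N → ℂ) ∘ QuotientGroup.mk → ψ ∈ B)
    {Dbar : Subgroup (G ⧸ N)} (hDbar : IsDefectGroup p M Bbar Dbar) :
    ∃ P : Subgroup G, IsDefectGroup p M B P ∧ Dbar ≤ P.map (QuotientGroup.mk' N) := by
  classical
  have := isPModular_isPrime hM
  obtain ⟨χbar, hχbar⟩ := IsPBlock_nonempty hBbar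
  have hψ : ((Cfsg.Agent.Lib.Degree.inflate N χbar : IrrCharacter G) : G → ℂ) =
      (χbar : G ⧸ N → ℂ) ∘ (QuotientGroup.mk : G → G ⧸ N) := rfl
  have hψB := hsub χbar hχbar _ hψ
  obtain ⟨x, hx⟩ := exists_isDefectClass hB
  obtain ⟨hm, hcbar⟩ := of_centralChar_inflate N hM hψ (hx.2.2 _ hψB)
  obtain ⟨P⟩ : Nonempty (Sylow p (Subgroup.centralizer ({x} : Set G))) := inferInstance
  obtain ⟨D, hD⟩ := exists_sylow_image N hm P
  obtain ⟨d, hd, S, rfl⟩ := hDbar
  have hSp : IsPGroup p ((S : Subgroup _).map (Subgroup.centralizer ({d} : Set (G ⧸ N))).subtype) :=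
    S.isPGroup'.map _
  have hSle : (S : Subgroup _).map (Subgroup.centralizer ({d} : Set (G ⧸ N))).subtype ≤
      Subgroup.centralizer ({d} : Set (G ⧸ N)) := by
    rintro _ ⟨u, _, rfl⟩
    exact u.2
  obtain ⟨y, hy⟩ := minmax_le hM hBbar hχbar hcbar hd.2.1 hSp hSle D
  obtain ⟨y₀, rfl⟩ := QuotientGroup.mk_surjective y
  refine ⟨((P : Subgroup _).map (Subgroup.centralizer ({x} : Set G)).subtype).map (MulAut.conj y₀).toMonoidHom,
    isDefectGroup_conj ⟨x, hx, P, rfl⟩ y₀, ?_⟩
  rw [map_mk_conj N, ← hD]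
  exact hy

/-- Regular elements in a coset of a central `p`-subgroup are unique. -/
theorem eq_of_reg_of_coset (hNp : IsPGroup p N) {x g : G} (hx : ¬ p ∣ orderOf x) (hg : ¬ p ∣ orderOf g)
    (hcom : N ≤ Subgroup.centralizer ({x} : Set G)) (h : (g : G ⧸ N) = x) : g = x := by
  have hn : x⁻¹ * g ∈ N := QuotientGroup.eq.mp h.symm
  set n := x⁻¹ * g with hn'
  have hgx : g = x * n := by rw [hn']; group
  have hc : Commute x n := by
    have := hcom hn
    rw [Subgroup.mem_centralizer_singleton_iff] at this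
    exact this.symm
  obtain ⟨k, hk⟩ := hNp ⟨n, hn⟩
  have hnk : n ^ p ^ k = 1 := by
    have := congrArg Subtype.val hk
    simpa using this
  have h1 : g ^ orderOf x = n ^ orderOf x := by
    rw [hgx, hc.mul_pow, pow_orderOf_eq_one, one_mul]
  have hcop1 : Nat.Coprime (orderOf g) (p ^ k) := (Nat.Coprime.pow_right k ((Nat.Prime.coprime_iff_not_dvd hp.out).mpr hg).symm)
  have h2 : (n ^ orderOf x) = 1 := by
    have a1 : (n ^ orderOf x) ^ orderOf g = 1 := by
      rw [← h1, ← pow_mul, mul_comm, pow_mul, pow_orderOf_eq_one, one_pow]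
    have a2 : (n ^ orderOf x) ^ p ^ k = 1 := by
      rw [← pow_mul, mul_comm, pow_mul, hnk, one_pow]
    have a3 := pow_gcd_eq_one.mpr ⟨a1, a2⟩
    simpa [Nat.Coprime.gcd_eq_one hcop1] using a3
  have hcop2 : Nat.Coprime (orderOf x) (p ^ k) := (Nat.Coprime.pow_right k ((Nat.Prime.coprime_iff_not_dvd hp.out).mpr hx).symm)
  have h3 : n = 1 := by
    have := pow_gcd_eq_one.mpr ⟨h2, hnk⟩
    simpa [Nat.Coprime.gcd_eq_one hcop2] using this
  rw [hgx, h3, mul_one]

/-- The coefficients of `blockElt` decompose over the blocks in a block union. -/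
theorem exists_block_coeff_notMem {H : Type*} [Group H] [Fintype H] (hM : IsPModular p M)
    {A : Set (IrrCharacter H)} (hA : IsBlockUnion M A) (g : H)
    (hg : ¬ MemLocalIdeal M (blockCoeff A g)) :
    ∃ χ ∈ A, ¬ MemLocalIdeal M (blockCoeff (blockOf M (χ : H → ℂ)) g) := by
  classical
  by_contra hcon
  push Not at hcon
  apply hg
  have := isPModular_isPrime hM
  set s : Finset (IrrCharacter H) := Finset.univ.filter (· ∈ A) with hs
  set b : IrrCharacter H → Set (IrrCharacter H) := fun χ => blockOf M (χ : H → ℂ) with hb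
  have key : blockCoeff A g = ∑ t ∈ s.image b, blockCoeff t g := by
    rw [blockCoeff_eq_sum]
    simp_rw [blockCoeff_eq_sum]
    rw [← Finset.mul_sum]
    congr 1
    rw [← Finset.sum_filter]
    rw [← Finset.sum_fiberwise_of_maps_to (g := b) (t := s.image b) (fun χ hχ => Finset.mem_image_of_mem b hχ)]
    refine Finset.sum_congr rfl fun t ht => ?_
    rw [← Finset.sum_filter]
    obtain ⟨χ₀, hχ₀, rfl⟩ := Finset.mem_image.mp ht
    refine Finset.sum_congr ?_ fun _ _ => rfl
    ext χ
    have hχ₀A : χ₀ ∈ A := by simpa [hs] using hχ₀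
    simp only [Finset.mem_filter, Finset.mem_univ, true_and]
    constructor
    · rintro ⟨_, h⟩
      show χ ∈ b χ₀
      rw [← h]
      exact mem_blockOf_self χ
    · intro h
      have h' : χ ∈ blockOf M (χ₀ : H → ℂ) := h
      refine ⟨?_, ?_⟩
      · rw [hs, Finset.mem_filter]
        refine ⟨Finset.mem_univ _, ?_⟩
        by_contra hχ
        exact hA χ₀ hχ₀A χ hχ h'
      · exact (blockOf_eq_of_mem (isPBlock_blockOf χ₀) h').symm
  rw [key]
  apply memLocalIdeal_sum
  intro t ht
  obtain ⟨χ₀, hχ₀, rfl⟩ := Finset.mem_image.mp ht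
  exact hcon χ₀ (by simpa [hs] using hχ₀)

attribute [local instance] subFintype

/-- **A normal `p`-subgroup:** a block of the quotient inside `B` with defect groups the images. -/
theorem defect_quot_pgroup (hM : IsPModular p M) (hNp : IsPGroup p N) {B : Set (IrrCharacter G)} (hB : IsPBlock M B) :
    ∃ Bbar : Set (IrrCharacter (G ⧸ N)), IsPBlock M Bbar ∧
      (∀ χ ∈ Bbar, ∀ ψ : IrrCharacter G, (ψ : G → ℂ) = (χ : G ⧸ N → ℂ) ∘ QuotientGroup.mk → ψ ∈ B) ∧
      ∀ Dbar : Subgroup (G ⧸ N), IsDefectGroup p M Bbar Dbar ↔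
        ∃ P : Subgroup G, IsDefectGroup p M B P ∧ Dbar = P.map (QuotientGroup.mk' N) := by
  classical
  have := isPModular_isPrime hM
  have hU := isBlockUnion_of_isPBlock hB
  obtain ⟨x, hx⟩ := exists_isDefectClass hB
  obtain ⟨P⟩ : Nonempty (Sylow p (Subgroup.centralizer ({x} : Set G))) := inferInstance
  have hPdef : IsDefectGroup p M B ((P : Subgroup (Subgroup.centralizer ({x} : Set G))).map
      (Subgroup.centralizer ({x} : Set G)).subtype) := ⟨x, hx, P, rfl⟩
  have hNP := normal_le_defect hM hNp hB hPdef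
  have hNC : N ≤ Subgroup.centralizer ({x} : Set G) := by
    intro n hn
    obtain ⟨u, _, hu⟩ := hNP hn
    rw [← hu]
    exact u.2
  have hsing := coeff_blockElt_of_singular (p := p) hM hU
  have hxreg : ¬ p ∣ orderOf x := fun hd => hx.2.1 (by
    have := hsing x hd
    rw [coeff_blockElt] at this
    rw [this]
    exact memLocalIdeal_zero)
  set A : Set (IrrCharacter (G ⧸ N)) := {χ | Cfsg.Agent.Lib.Degree.inflate N χ ∈ B} with hAdef
  have hproj : projAlg N (blockElt B) = blockElt A :=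
    eq_blockElt_of_om (isCentralElt_projAlg N (isCentralElt_blockElt B))
      (fun χ hχ => by
        rw [om_projAlg]
        exact om_blockElt_of_mem (A := B) (ψ := Cfsg.Agent.Lib.Degree.inflate N χ) hχ)
      (fun χ hχ => by
        rw [om_projAlg]
        exact om_blockElt_of_notMem (A := B) (ψ := Cfsg.Agent.Lib.Degree.inflate N χ) hχ)
  have hA : IsBlockUnion M A := by
    apply isBlockUnion_of_localCoeff
    rw [← hproj]
    exact localCoeff_projAlg N (localCoeff_blockElt hU)
  have hcoeff : blockCoeff A (x : G ⧸ N) = blockCoeff B x := by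
    rw [← coeff_blockElt, ← hproj, coeff_projAlg, Finset.sum_eq_single x]
    · rw [if_pos rfl, coeff_blockElt]
    · intro g _ hgx
      split_ifs with h
      · by_cases hreg : p ∣ orderOf g
        · exact hsing g hreg
        · exact absurd (eq_of_reg_of_coset N hNp hxreg hreg hNC h) hgx
      · rfl
    · simp
  obtain ⟨χ₀, hχ₀, hcoef⟩ := exists_block_coeff_notMem hM hA (x : G ⧸ N) (by rw [hcoeff]; exact hx.2.1)
  have hBbar : IsPBlock M (blockOf M (χ₀ : G ⧸ N → ℂ)) := isPBlock_blockOf χ₀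
  have hin : ∀ χ ∈ blockOf M (χ₀ : G ⧸ N → ℂ), χ ∈ A := by
    intro χ hχ
    by_contra hn
    exact hA χ₀ hχ₀ χ hn hχ
  have hclass : IsDefectClass M (blockOf M (χ₀ : G ⧸ N → ℂ)) (x : G ⧸ N) := by
    refine ⟨memLocalRing_blockCoeff (isBlockUnion_of_isPBlock hBbar) _, hcoef, fun χ hχ => ?_⟩
    exact (of_centralChar_inflate N hM (ψ := (Cfsg.Agent.Lib.Degree.inflate N χ : IrrCharacter G)) rfl
      (hx.2.2 _ (hin χ hχ))).2
  have hm : ¬ p ∣ quotMul N x :=
    (of_centralChar_inflate N hM (ψ := (Cfsg.Agent.Lib.Degree.inflate N χ₀ : IrrCharacter G)) rfl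
      (hx.2.2 _ hχ₀)).1
  obtain ⟨D, hD⟩ := exists_sylow_image N hm P
  have hD₀ : IsDefectGroup p M (blockOf M (χ₀ : G ⧸ N → ℂ))
      (((P : Subgroup (Subgroup.centralizer ({x} : Set G))).map
        (Subgroup.centralizer ({x} : Set G)).subtype).map (QuotientGroup.mk' N)) :=
    ⟨_, hclass, D, hD.symm⟩
  refine ⟨_, hBbar, ?_, fun Dbar => ⟨fun h => ?_, ?_⟩⟩
  · intro χ hχ ψ hψ
    have : ψ = Cfsg.Agent.Lib.Degree.inflate N χ := Subtype.ext hψ
    rw [this]
    exact hin χ hχ
  · obtain ⟨y, rfl⟩ := exists_conj_of_defect hM hBbar hD₀ h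
    obtain ⟨y₀, rfl⟩ := QuotientGroup.mk_surjective y
    exact ⟨_, isDefectGroup_conj hPdef y₀, (map_mk_conj N _ y₀).symm⟩
  · rintro ⟨Q, hQ, rfl⟩
    obtain ⟨y, rfl⟩ := exists_conj_of_defect hM hB hPdef hQ
    show IsDefectGroup p M _ (Subgroup.map _ (Subgroup.map (MulAut.conj y).toMonoidHom _))
    rw [map_mk_conj N]
    exact isDefectGroup_conj hD₀ _

end Quot

end Cfsg.Agent.Lib.BPair
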