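import Cfsg.Agent.Lib.BPair.HarrisKnorr
import Cfsg.Agent.Lib.BPair.QuotDefect
import Cfsg.Agent.Lib.Block.DefectZero
import Cfsg.Agent.Lib.CharExtra.DefectCount
import Cfsg.Agent.S0887

/-!
# Weights on Brauer pairs

A defect zero character of `T / Q` in the block of `T` with the idempotent of `e` forces `Z(Q)` to be a defect
group of `e`, and `Q = O_p(T)`.
-/

set_option autoImplicit false
set_option linter.unusedSectionVars false
set_option linter.unusedSimpArgs false
set_option linter.unusedVariables false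

open scoped ComplexConjugate
open Cfsg MonoidAlgebra
open Cfsg.Agent.Lib.Block Cfsg.Agent.Lib.Char Cfsg.Agent.Lib.CharExtra Cfsg.Agent.Lib.Degree

namespace Cfsg.Agent.Lib.BPair

attribute [local instance] subFintype

section General

variable {p : ℕ} [hp : Fact p.Prime] {M : Ideal AlgInt}

theorem classInner_comp_surjective {A B : Type*} [Group A] [Group B] [Fintype A] [Fintype B] (g : A →* B)
    (hg : Function.Surjective g) (u v : B → ℂ) :
    classInner (u ∘ g) (v ∘ g) = classInner u v := by
  classical
  unfold classInner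
  set n := (Finset.univ.filter (fun a : A => g a = 1)).card with hn
  have hfib : ∀ b : B, (Finset.univ.filter (fun a : A => g a = b)).card = n := by
    intro b
    exact MonoidHom.card_fiber_eq_of_mem_range g (hg b) (hg 1)
  have hcard : Nat.card A = n * Nat.card B := by
    rw [Nat.card_eq_fintype_card, Nat.card_eq_fintype_card, ← Finset.card_univ, ← Finset.card_univ,
      Finset.card_eq_sum_card_fiberwise (f := g) (t := Finset.univ) (fun _ _ => Finset.mem_univ _)]
    rw [Finset.sum_congr rfl fun b _ => hfib b, Finset.sum_const, smul_eq_mul, mul_comm]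
  have hn0 : (n : ℂ) ≠ 0 := by
    intro h
    have h0 : n = 0 := by exact_mod_cast h
    rw [h0, zero_mul] at hcard
    exact Nat.card_pos.ne' hcard
  have hsum : ∑ a : A, (u ∘ g) a * conj ((v ∘ g) a) = n * ∑ b : B, u b * conj (v b) := by
    rw [← Finset.sum_fiberwise (s := Finset.univ) (g := g), Finset.mul_sum]
    refine Finset.sum_congr rfl fun b _ => ?_
    rw [Finset.sum_congr rfl (g := fun _ => u b * conj (v b))]
    · rw [Finset.sum_const, hfib, nsmul_eq_mul]
    · intro a ha
      rw [Finset.mem_filter] at ha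
      simp [Function.comp, ha.2]
  rw [hsum, hcard]
  push_cast
  have hB : (Nat.card B : ℂ) ≠ 0 := by exact_mod_cast Nat.card_pos.ne'
  field_simp

theorem blockDefect_eq_zero_of_full {K : Type*} [Group K] [Finite K] (hM : IsPModular p M) (θ : IrrCharacter K)
    (h : (charDegree (θ : K → ℂ)).factorization p = (Nat.card K).factorization p) :
    blockDefect p (blockOf M (θ : K → ℂ)) = 0 := by
  classical
  haveI : Fintype K := Fintype.ofFinite K
  have hdvd := charDegree_dvd_card θ.2
  have hnot : ¬ p ∣ Nat.card K / charDegree (θ : K → ℂ) := by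
    rw [not_dvd_card_div_iff hp.out hdvd, ← h]
    exact Nat.ordProj_dvd _ _
  rw [blockOf_eq_singleton_of_not_dvd hM θ hnot]
  unfold blockDefect
  rw [Set.image_singleton, csInf_singleton, h, Nat.sub_self]

/-- **A defect zero character of `K / Z`, `Z` a central `p`-subgroup:** the block has defect group `Z`. -/
theorem isDefectGroup_of_central_defectZero {K : Type*} [Group K] [Fintype K] (hM : IsPModular p M) (Z : Subgroup K)
    [hZn : Z.Normal] (hZp : IsPGroup p Z) (hZc : ∀ z ∈ Z, ∀ k : K, z * k = k * z) (θ : IrrCharacter (K ⧸ Z))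
    (hdeg : (charDegree (θ : K ⧸ Z → ℂ)).factorization p + (Nat.card Z).factorization p = (Nat.card K).factorization p) :
    IsDefectGroup p M (blockOf M ((inflate Z θ : IrrCharacter K) : K → ℂ)) Z := by
  classical
  have := isPModular_isPrime hM
  haveI : Fintype (K ⧸ Z) := Fintype.ofFinite _
  have hcard : Nat.card K = Nat.card (K ⧸ Z) * Nat.card Z := Subgroup.card_eq_card_quotient_mul_card_subgroup Z
  have hX : (charDegree (θ : K ⧸ Z → ℂ)).factorization p = (Nat.card (K ⧸ Z)).factorization p := by
    rw [hcard, Nat.factorization_mul Nat.card_pos.ne' Nat.card_pos.ne'] at hdeg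
    simp only [Finsupp.add_apply] at hdeg
    omega
  have h0 := blockDefect_eq_zero_of_full hM θ hX
  obtain ⟨xb, hxb⟩ := exists_isDefectClass (isPBlock_blockOf (M := M) θ)
  have hreg : ¬ p ∣ orderOf xb := fun hd => hxb.2.1 (by
    have := coeff_blockElt_of_singular (p := p) hM (isBlockUnion_of_isPBlock (isPBlock_blockOf (M := M) θ)) xb hd
    rw [coeff_blockElt] at this
    rw [this]
    exact memLocalIdeal_zero)
  -- the centralizer of `xb` is a `p'`-group
  obtain ⟨S⟩ : Nonempty (Sylow p (Subgroup.centralizer ({xb} : Set (K ⧸ Z)))) := inferInstance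
  have hS : IsDefectGroup p M (blockOf M (θ : K ⧸ Z → ℂ)) ((S : Subgroup _).map (Subgroup.centralizer ({xb} : Set (K ⧸ Z))).subtype) := ⟨xb, hxb, S, rfl⟩
  have hS1 := card_defect_group hM (isPBlock_blockOf (M := M) θ) hS
  rw [h0, pow_zero, Subgroup.card_map_of_injective (Subgroup.subtype_injective _), Sylow.card_eq_multiplicity] at hS1
  have hv0 : (Nat.card (Subgroup.centralizer ({xb} : Set (K ⧸ Z)))).factorization p = 0 := by
    by_contra hne
    have := Nat.one_lt_pow hne hp.out.one_lt
    omega
  -- the lift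
  obtain ⟨g, rfl⟩ := QuotientGroup.mk_surjective xb
  obtain ⟨u, y, huy, hcomm, ⟨k, hk⟩, hy, hu', hy'⟩ := exists_jordan (p := p) g
  have hub : ((u : K) : K ⧸ Z) = 1 := by
    have h1 : orderOf ((u : K) : K ⧸ Z) ∣ p ^ k := by
      rw [← hk]
      exact orderOf_map_dvd (QuotientGroup.mk' Z) u
    have h2 : orderOf ((u : K) : K ⧸ Z) ∣ orderOf ((g : K) : K ⧸ Z) := by
      apply orderOf_dvd_of_mem_zpowers
      obtain ⟨n, hn⟩ := hu'
      exact ⟨n, by rw [← hn]; simp⟩
    obtain ⟨j, -, hj⟩ := (Nat.dvd_prime_pow hp.out).mp h1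
    rw [hj] at h2
    rcases j with _ | j
    · rw [pow_zero] at hj
      exact orderOf_eq_one_iff.mp hj
    · exact absurd ((dvd_pow_self p (Nat.succ_ne_zero j)).trans h2) hreg
  have hyb : ((y : K) : K ⧸ Z) = (g : K ⧸ Z) := by
    rw [← huy, QuotientGroup.mk_mul, hub, one_mul]
  rw [← hyb] at hxb hv0 hreg
  have hZcy : Z ≤ Subgroup.centralizer ({y} : Set K) := by
    intro z hz
    rw [Subgroup.mem_centralizer_singleton_iff]
    exact hZc z hz y
  have hcomap : (Subgroup.centralizer ({(y : K ⧸ Z)} : Set (K ⧸ Z))).comap (QuotientGroup.mk' Z) =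
      Subgroup.centralizer ({y} : Set K) := by
    apply le_antisymm
    · intro w hw
      rw [Subgroup.mem_comap, Subgroup.mem_centralizer_singleton_iff] at hw
      simp only [QuotientGroup.mk'_apply] at hw
      rw [Subgroup.mem_centralizer_singleton_iff]
      have h1 : ((w * y * w⁻¹ : K) : K ⧸ Z) = y := by
        rw [QuotientGroup.mk_mul, QuotientGroup.mk_mul, hw, QuotientGroup.mk_inv]
        group
      have h2 : ¬ p ∣ orderOf (w * y * w⁻¹) := by
        rw [show w * y * w⁻¹ = MulAut.conj w y from rfl, MulEquiv.orderOf_eq]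
        exact hy
      have h3 := eq_of_reg_of_coset Z hZp hy h2 hZcy h1
      calc w * y = w * y * w⁻¹ * w := by group
        _ = y * w := by rw [h3]
    · exact le_comap_centralizer Z y
  have hm : quotMul Z y = 1 := by
    unfold quotMul
    rw [hcomap]
    exact Subgroup.relIndex_self _
  have hcc : centralChar ((inflate Z θ : IrrCharacter K) : K → ℂ) y = centralChar (θ : K ⧸ Z → ℂ) (y : K ⧸ Z) := by
    rw [centralChar_of_comp Z (χ := (θ : K ⧸ Z → ℂ)) (ψ := ((inflate Z θ : IrrCharacter K) : K → ℂ)) rfl y, hm]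
    simp
  have hunit : ¬ MemLocalIdeal M (centralChar ((inflate Z θ : IrrCharacter K) : K → ℂ) y) := by
    rw [hcc]
    exact hxb.2.2 θ (mem_blockOf_self θ)
  have hle := blockDefect_le_of_centralChar hM hunit
  -- the order of the centralizer
  have hcardC : Nat.card (Subgroup.centralizer ({y} : Set K)) =
      Nat.card (Subgroup.centralizer ({(y : K ⧸ Z)} : Set (K ⧸ Z))) * Nat.card Z := by
    have h1 := Subgroup.card_mul_index (Subgroup.centralizer ({y} : Set K))
    have h2 := Subgroup.card_mul_index (Subgroup.centralizer ({(y : K ⧸ Z)} : Set (K ⧸ Z)))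
    have h3 : (Subgroup.centralizer ({y} : Set K)).index =
        (Subgroup.centralizer ({(y : K ⧸ Z)} : Set (K ⧸ Z))).index := by
      rw [← hcomap]
      exact Subgroup.index_comap_of_surjective _ (QuotientGroup.mk'_surjective Z)
    rw [hcard, ← h2, ← h3] at h1
    have h4 : 0 < (Subgroup.centralizer ({y} : Set K)).index := Nat.pos_of_ne_zero Subgroup.index_ne_zero_of_finite
    apply Nat.eq_of_mul_eq_mul_right h4
    rw [h1]
    ring
  rw [hcardC, Nat.factorization_mul Nat.card_pos.ne' Nat.card_pos.ne'] at hle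
  simp only [Finsupp.add_apply, hv0, zero_add] at hle
  obtain ⟨D, hD⟩ := Cfsg.Agent.Lib.Block.exists_isDefectGroup hM (isPBlock_blockOf (M := M) (inflate Z θ))
  have hZD := normal_le_defect hM hZp (isPBlock_blockOf (M := M) (inflate Z θ)) hD
  have hcD := card_defect_group hM (isPBlock_blockOf (M := M) (inflate Z θ)) hD
  obtain ⟨n, hn⟩ := IsPGroup.iff_card.mp hZp
  have hcardle : Nat.card D ≤ Nat.card Z := by
    rw [hcD]
    have h5 : (Nat.card Z).factorization p = n := by
      rw [hn]
      simp [hp.out.factorization_pow]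
    rw [hn]
    rw [h5] at hle
    exact Nat.pow_le_pow_right hp.out.pos hle
  have hDZ : Z = D := Subgroup.eq_of_le_of_card_ge hZD hcardle
  rw [← hDZ] at hD
  exact hD

end General

section Main

variable {G : Type*} [Group G] [Fintype G] {p : ℕ} [hp : Fact p.Prime] {M : Ideal AlgInt}

theorem weight_main (hM : IsPModular p M) {Q : Subgroup G} (hQp : IsPGroup p Q) {e : Set (IrrCharacter (Cen Q))}
    (he : IsPBlock M e) {T : Subgroup G} (hCT : Cen Q ≤ T) (hQT : Q ≤ T) (hTN : T ≤ Subgroup.normalizer (Q : Set G))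
    {F' : Set (IrrCharacter T)} (hF'e : ∀ t : T, blockCoeff F' t = subgroupBlockCoeff (Cen Q) e (t : G))
    {χ : IrrCharacter T} (hχ : χ ∈ F') (hker : ∀ q : T, (q : G) ∈ Q → (χ : T → ℂ) q = (χ : T → ℂ) 1)
    (hdeg : (charDegree (χ : T → ℂ)).factorization p + (Nat.card Q).factorization p = (Nat.card T).factorization p) :
    IsDefectGroup p M e ((Q ⊓ Cen Q).subgroupOf (Cen Q)) ∧
      ∀ R : Subgroup G, R ≤ T → IsPGroup p R → (∀ t ∈ T, t ∈ Subgroup.normalizer (R : Set G)) → R ≤ Q := by
  classical
  have hMp := isPModular_isPrime hM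
  set Qt : Subgroup T := Q.subgroupOf T with hQt
  haveI hQtn : Qt.Normal := (Subgroup.normal_subgroupOf_iff_le_normalizer hQT).mpr hTN
  set Ct : Subgroup T := (Cen Q).subgroupOf T with hCt
  haveI hCtn : Ct.Normal := by
    constructor
    intro x hx g
    rw [hCt, Subgroup.mem_subgroupOf] at hx ⊢
    exact (conj_mem_centralizer_iff (hTN g.2) _).mpr hx
  have hcardQt : Nat.card Qt = Nat.card Q := card_subgroupOf_of_le hQT
  haveI : Fintype (T ⧸ Qt) := Fintype.ofFinite _
  have hkerC : KerContains Qt (χ : T → ℂ) := fun n hn => hker n hn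
  obtain ⟨χb, hχb⟩ := exists_inflate Qt hkerC
  have hχbdeg : charDegree (χb : T ⧸ Qt → ℂ) = charDegree (χ : T → ℂ) := by
    rw [← hχb]
    rfl
  have hcardT : Nat.card T = Nat.card (T ⧸ Qt) * Nat.card Qt := Subgroup.card_eq_card_quotient_mul_card_subgroup Qt
  have hfull : (charDegree (χb : T ⧸ Qt → ℂ)).factorization p = (Nat.card (T ⧸ Qt)).factorization p := by
    rw [hχbdeg]
    rw [hcardT, hcardQt, Nat.factorization_mul Nat.card_pos.ne' Nat.card_pos.ne'] at hdeg
    simp only [Finsupp.add_apply] at hdeg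
    omega
  constructor
  · -- the constituent
    set f : T →* T ⧸ Qt := QuotientGroup.mk' Qt with hf
    have hfs : Function.Surjective f := QuotientGroup.mk'_surjective Qt
    set Y : Subgroup (T ⧸ Qt) := Ct.map f with hY
    haveI hYn : Y.Normal := Subgroup.Normal.map hCtn f hfs
    obtain ⟨θb, hθb⟩ := exists_constituent Y χb
    have hdv := Cfsg.Agent.S0887.result Y (χb : T ⧸ Qt → ℂ) χb.2 (θb : Y → ℂ) θb.2 hθb
      (charDegree (χb : T ⧸ Qt → ℂ)) (charDegree (θb : Y → ℂ))
      (map_one_eq_charDegree (IsIrrCharacter.isCharacter χb.2)) (map_one_eq_charDegree (IsIrrCharacter.isCharacter θb.2))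
    obtain ⟨hd1, hd2⟩ := hdv
    have hcpos : charDegree (χb : T ⧸ Qt → ℂ) ≠ 0 := (charDegree_pos_of_irr χb.2).ne'
    have hdpos : charDegree (θb : Y → ℂ) ≠ 0 := (charDegree_pos_of_irr θb.2).ne'
    set c := charDegree (χb : T ⧸ Qt → ℂ) with hc
    set d := charDegree (θb : Y → ℂ) with hd
    have hcd : c = d * (c / d) := (Nat.mul_div_cancel' hd1).symm
    have hcd0 : c / d ≠ 0 := by
      intro h0
      rw [h0, mul_zero] at hcd
      exact hcpos hcd
    have hidx0 : Y.index ≠ 0 := Subgroup.index_ne_zero_of_finite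
    have hv1 : c.factorization p = d.factorization p + (c / d).factorization p := by
      conv_lhs => rw [hcd]
      rw [Nat.factorization_mul hdpos hcd0]
      simp
    have hv2 : (c / d).factorization p ≤ Y.index.factorization p :=
      (Nat.factorization_le_iff_dvd hcd0 hidx0).mpr hd2 p
    have hv3 : (Nat.card (T ⧸ Qt)).factorization p = (Nat.card Y).factorization p + Y.index.factorization p := by
      rw [← Subgroup.card_mul_index Y, Nat.factorization_mul Nat.card_pos.ne' hidx0]
      simp
    have hv4 : d.factorization p ≤ (Nat.card Y).factorization p :=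
      (Nat.factorization_le_iff_dvd hdpos Nat.card_pos.ne').mpr (charDegree_dvd_card θb.2) p
    have hdY : d.factorization p = (Nat.card Y).factorization p := by omega
    -- the map from `C`
    set φ : Ct ≃* Cen Q := Subgroup.subgroupOfEquivOfLe hCT with hφ
    set g₀ : Ct →* Y := f.subgroupMap Ct with hg₀
    have hg₀s : Function.Surjective g₀ := f.subgroupMap_surjective Ct
    set G' : Cen Q →* Y := g₀.comp φ.symm.toMonoidHom with hG'
    have hG's : Function.Surjective G' := hg₀s.comp φ.symm.surjective
    set θ₀ : IrrCharacter (Cen Q) := ⟨(θb : Y → ℂ) ∘ G', isIrr_comp_surjective G' hG's θb.2⟩ with hθ₀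
    set Z : Subgroup (Cen Q) := (Q ⊓ Cen Q).subgroupOf (Cen Q) with hZ
    have hZker : G'.ker = Z := by
      ext z
      rw [MonoidHom.mem_ker, hZ, Subgroup.mem_subgroupOf]
      have e1 : (G' z = 1) ↔ ((z : G) ∈ Q) := by
        constructor
        · intro h
          have h2 : f (φ.symm z : T) = 1 := congrArg Subtype.val h
          rw [hf, QuotientGroup.mk'_apply, QuotientGroup.eq_one_iff] at h2
          exact h2
        · intro h
          apply Subtype.ext
          show f (φ.symm z : T) = 1
          rw [hf, QuotientGroup.mk'_apply, QuotientGroup.eq_one_iff]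
          exact h
      rw [e1]
      exact ⟨fun h => ⟨h, z.2⟩, fun h => h.1⟩
    haveI hZn : Z.Normal := hZker ▸ MonoidHom.normal_ker G'
    have hZp : IsPGroup p Z := by
      intro z
      have hz : ((z : Cen Q) : G) ∈ Q ⊓ Cen Q := Subgroup.mem_subgroupOf.mp z.2
      obtain ⟨k, hk⟩ := hQp ⟨_, hz.1⟩
      refine ⟨k, Subtype.ext (Subtype.ext ?_)⟩
      have := congrArg Subtype.val hk
      simpa using this
    have hZc : ∀ z ∈ Z, ∀ k : Cen Q, z * k = k * z := by
      intro z hz k
      rw [hZ, Subgroup.mem_subgroupOf] at hz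
      apply Subtype.ext
      have := Subgroup.mem_centralizer_iff.mp k.2 (z : G) hz.1
      simpa using this
    have hkerθ : KerContains Z (θ₀ : Cen Q → ℂ) := by
      intro z hz
      have h1 : G' z = 1 := by
        rw [← MonoidHom.mem_ker, hZker]
        exact hz
      show (θb : Y → ℂ) (G' z) = (θb : Y → ℂ) (G' 1)
      rw [h1, map_one]
    obtain ⟨θz, hθz⟩ := exists_inflate Z hkerθ
    have hθzdeg : charDegree (θz : Cen Q ⧸ Z → ℂ) = d := by
      have e1 : charDegree (θz : Cen Q ⧸ Z → ℂ) = charDegree (θ₀ : Cen Q → ℂ) := by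
        rw [← hθz]
        rfl
      rw [e1]
      show charDegree ((θb : Y → ℂ) ∘ G') = _
      unfold charDegree
      simp [hd, charDegree]
    have hcardC : Nat.card (Cen Q) = Nat.card Y * Nat.card Z := by
      have h1 := Subgroup.card_mul_index G'.ker
      rw [Subgroup.index_ker, MonoidHom.range_eq_top.mpr hG's, Subgroup.card_top, hZker] at h1
      rw [← h1, mul_comm]
    have hdz : (charDegree (θz : Cen Q ⧸ Z → ℂ)).factorization p + (Nat.card Z).factorization p =
        (Nat.card (Cen Q)).factorization p := by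
      rw [hθzdeg, hdY, hcardC, Nat.factorization_mul Nat.card_pos.ne' Nat.card_pos.ne']
      simp
    have hdef := isDefectGroup_of_central_defectZero hM Z hZp hZc θz hdz
    rw [hθz] at hdef
    -- `θ₀` lies in `e`
    have hin : pull φ θ₀ ∈ mapBlock φ.symm e := by
      have hinc : incl Ct (blockElt (mapBlock φ.symm e)) = blockElt F' := by
        apply ext_coeff
        intro t
        by_cases ht : t ∈ Ct
        · have e1 := coeff_incl_coe Ct (blockElt (mapBlock φ.symm e)) ⟨t, ht⟩
          simp only at e1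
          rw [e1, coeff_blockElt, coeff_blockElt, hF'e]
          have e2 := blockCoeff_mapBlock φ.symm e (φ ⟨t, ht⟩)
          simp only [MulEquiv.symm_apply_apply] at e2
          rw [e2]
          have ht' : (t : G) ∈ Cen Q := ht
          unfold subgroupBlockCoeff
          rw [dif_pos ht']
          rfl
        · rw [coeff_incl_of_notMem _ _ ht, coeff_blockElt, hF'e]
          have ht' : (t : G) ∉ Cen Q := ht
          unfold subgroupBlockCoeff
          rw [dif_neg ht']
      have hcon : classInner (fun n : Ct => (χ : T → ℂ) n) (pull φ θ₀ : Ct → ℂ) ≠ 0 := by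
        have e1 : (fun n : Ct => (χ : T → ℂ) n) = (fun y : Y => (χb : T ⧸ Qt → ℂ) y) ∘ g₀ := by
          funext n
          rw [← hχb]
          rfl
        have e2 : ((pull φ θ₀ : IrrCharacter Ct) : Ct → ℂ) = (θb : Y → ℂ) ∘ g₀ := by
          funext n
          rw [pull_coe]
          simp only [Function.comp, hθ₀, hG']
          simp
        rw [e1, e2, classInner_comp_surjective g₀ hg₀s]
        exact hθb
      have h2 := om_incl_of_constituent Ct χ (pull φ θ₀) hcon (w := blockElt (mapBlock φ.symm e))
        (by rw [hinc]; exact isCentralElt_blockElt _)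
      rw [hinc, om_blockElt_of_mem hχ] at h2
      by_contra hnot
      rw [om_blockElt_of_notMem hnot] at h2
      exact one_ne_zero h2
    rw [mem_mapBlock] at hin
    have hθ₀e : θ₀ ∈ e := by
      have e1 : mapIrr φ.symm.symm (pull φ θ₀) = θ₀ := mapIrr_pull φ θ₀
      rwa [e1] at hin
    rw [blockOf_eq_of_mem he hθ₀e]
    exact hdef
  · intro R hRT hR hRn
    have hRt : (R.subgroupOf T).Normal := (Subgroup.normal_subgroupOf_iff_le_normalizer hRT).mpr (fun t ht => hRn t ht)
    set f : T →* T ⧸ Qt := QuotientGroup.mk' Qt with hf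
    have hfs : Function.Surjective f := QuotientGroup.mk'_surjective Qt
    set Rb : Subgroup (T ⧸ Qt) := (R.subgroupOf T).map f with hRb
    haveI hRbn : Rb.Normal := Subgroup.Normal.map hRt f hfs
    have hRbp : IsPGroup p Rb := (hR.comap_of_injective _ (Subgroup.subtype_injective _)).map _
    obtain ⟨D, hD⟩ := Cfsg.Agent.Lib.Block.exists_isDefectGroup hM (isPBlock_blockOf (M := M) χb)
    have h1 := normal_le_defect hM hRbp (isPBlock_blockOf (M := M) χb) hD
    have h2 := card_defect_group hM (isPBlock_blockOf (M := M) χb) hD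
    rw [blockDefect_eq_zero_of_full hM χb hfull, pow_zero] at h2
    have h3 : D = ⊥ := Subgroup.eq_bot_of_card_eq D h2
    intro r hr
    have h4 : f ⟨r, hRT hr⟩ ∈ D := h1 ⟨⟨r, hRT hr⟩, hr, rfl⟩
    rw [h3, Subgroup.mem_bot, hf, QuotientGroup.mk'_apply, QuotientGroup.eq_one_iff] at h4
    exact h4

end Main

end Cfsg.Agent.Lib.BPair
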